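import Mathlib
import Cfsg.Agent.Loc.TILem
import Cfsg.Agent.Inv.Basic
import Cfsg.Agent.S1781

/-! Abelian TI-subgroups of exponent four: the class `𝒟`, planes and their members. -/

set_option autoImplicit false
set_option linter.unusedSectionVars false
open Cfsg

namespace Cfsg.Agent.TIB

open Cfsg.Agent.Loc.Mss Cfsg.Agent.GT Subgroup
open scoped commutatorElement

variable {G : Type*} [Group G]

theorem dih {Γ : Type*} [Group Γ] [Finite Γ] {x z : Γ} (hx : x * x = 1) (hz : z * z = 1) :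
    ∃ j : ℤ, ∃ s : Γ, s * x = x * s ∧ s * z = z * s ∧
      (x * s = (x * z) ^ j * z * ((x * z) ^ j)⁻¹ ∨
        (s ≠ 1 ∧ z * s = (x * z) ^ j * z * ((x * z) ^ j)⁻¹)) := by
  have hxi : x⁻¹ = x := inv_eq_of_mul_eq_one_left hx
  have hzi : z⁻¹ = z := inv_eq_of_mul_eq_one_left hz
  obtain ⟨c, hc⟩ : ∃ c, c = x * z := ⟨_, rfl⟩
  rw [← hc]
  have h1 : ∀ i : ℤ, z * c ^ i = c ^ (-i) * z := fun i => by
    have : z * c * z⁻¹ = c⁻¹ := by rw [hc, mul_inv_rev, hxi, hzi, mul_assoc, mul_assoc, hz, mul_one]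
    rw [zpow_neg, ← inv_zpow, ← this, conj_zpow, inv_mul_cancel_right]
  have h2 : x = c * z := by rw [hc, mul_assoc, hz, mul_one]
  have h3 : ∀ i : ℤ, c ^ i * z * (c ^ i)⁻¹ = c ^ (2 * i) * z := fun i => by
    rw [← zpow_neg, mul_assoc, h1, neg_neg, ← mul_assoc, ← zpow_add, two_mul]
  have h4 : ∀ m : ℤ, c ^ (2 * m) = 1 → c ^ m * z = z * c ^ m := fun m hm => by
    rw [h1, zpow_neg, inv_eq_of_mul_eq_one_left (show c ^ m * c ^ m = 1 by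
      rw [← zpow_add, ← two_mul, hm])]
  have h5 : ∀ m : ℤ, c ^ (2 * m) = 1 → c ^ m * x = x * c ^ m := fun m hm => by
    rw [h2, mul_assoc, ← h4 m hm, ← mul_assoc, ← mul_assoc, (Commute.refl c).zpow_left m |>.eq]
  have h0 := orderOf_pos c
  rcases Nat.even_or_odd' (orderOf c) with ⟨m, hm | hm⟩
  · have hs : c ^ (2 * (m : ℤ)) = 1 := by
      have := pow_orderOf_eq_one c
      rw [hm] at this
      exact_mod_cast this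
    have hs1 : c ^ (m : ℤ) ≠ 1 := by
      rw [zpow_natCast]
      exact pow_ne_one_of_lt_orderOf (by omega) (by omega)
    rcases Nat.even_or_odd' m with ⟨j, hj | hj⟩
    · refine ⟨j, c ^ (m : ℤ), h5 m hs, h4 m hs, Or.inr ⟨hs1, ?_⟩⟩
      rw [h3, ← h4 m hs, hj]; push_cast; rfl
    · refine ⟨j + 1, c ^ (m : ℤ), h5 m hs, h4 m hs, Or.inl ?_⟩
      rw [h3, ← h5 m hs, h2, ← mul_assoc, ← zpow_add_one, hj]; push_cast; ring_nf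
  · refine ⟨m + 1, 1, by simp, by simp, Or.inl ?_⟩
    have := pow_orderOf_eq_one c
    rw [hm] at this
    rw [h3, mul_one, h2, show (2 : ℤ) * (m + 1) = ((2 * m + 1 : ℕ) : ℤ) + 1 by push_cast; ring,
      zpow_add_one, zpow_natCast, this, one_mul]

/-- The dihedral alternative modulo a subgroup. -/
theorem dih_mod [Finite G] {C : Subgroup G} {x z : G} (hxn : x ∈ 𝐍[C]) (hzn : z ∈ 𝐍[C])
    (hx : x * x ∈ C) (hz : z * z ∈ C) :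
    ∃ l ∈ zpowers (x * z), ∃ s ∈ 𝐍[C], ⁅s, x⁆ ∈ C ∧ ⁅s, z⁆ ∈ C ∧
      (x * s * (l * z * l⁻¹)⁻¹ ∈ C ∨ (s ∉ C ∧ z * s * (l * z * l⁻¹)⁻¹ ∈ C)) := by
  let N := 𝐍[C]
  let K := C.subgroupOf N
  have : K.Normal := normal_in_normalizer
  let π : N →* N ⧸ K := QuotientGroup.mk' K
  have hk : ∀ g : N, π g = 1 ↔ (g : G) ∈ C := fun g => QuotientGroup.eq_one_iff g
  obtain ⟨j, s, h1, h2, h3⟩ := dih (x := π ⟨x, hxn⟩) (z := π ⟨z, hzn⟩)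
    (by rw [← map_mul, hk]; exact hx) (by rw [← map_mul, hk]; exact hz)
  obtain ⟨s, rfl⟩ := QuotientGroup.mk'_surjective K s
  have hc : ∀ a b : N, π a * π b = π b * π a → ⁅(a : G), (b : G)⁆ ∈ C := fun a b e => by
    have : π ⁅a, b⁆ = 1 := by rw [map_commutatorElement, commutatorElement_eq_one_iff_mul_comm, e]
    exact (hk _).1 this
  have hd : ∀ a : N, π a * π s = (π ⟨x, hxn⟩ * π ⟨z, hzn⟩) ^ j * π ⟨z, hzn⟩ *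
      ((π ⟨x, hxn⟩ * π ⟨z, hzn⟩) ^ j)⁻¹ →
      (a : G) * s * ((x * z) ^ j * z * ((x * z) ^ j)⁻¹)⁻¹ ∈ C := fun a e => by
    have : π (a * s * ((⟨x, hxn⟩ * ⟨z, hzn⟩) ^ j * ⟨z, hzn⟩ *
        ((⟨x, hxn⟩ * ⟨z, hzn⟩) ^ j)⁻¹)⁻¹) = 1 := by
      simp only [map_mul, map_inv, map_zpow, e, mul_inv_cancel]
    simpa using (hk _).1 this
  refine ⟨(x * z) ^ j, ⟨j, rfl⟩, s, s.2, hc _ _ h1, hc _ _ h2, h3.imp (hd _) ?_⟩
  rintro ⟨h4, h5⟩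
  exact ⟨fun e => h4 ((hk s).2 e), hd _ h5⟩

/-- The involutions of an abelian group. -/
def A (X : Subgroup G) : Subgroup G where
  carrier := {w | w ∈ X ∧ w ∈ 𝐂[X] ∧ w * w = 1}
  one_mem' := ⟨one_mem _, one_mem _, mul_one 1⟩
  mul_mem' := by
    rintro a b ⟨ha, ha', ha2⟩ ⟨hb, hb', hb2⟩
    refine ⟨mul_mem ha hb, mul_mem ha' hb', ?_⟩
    rw [mul_assoc, ← mul_assoc b, mem_cent.1 ha' b hb, mul_assoc, hb2, mul_one, ha2]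
  inv_mem' := by
    rintro a ⟨ha, ha', ha2⟩
    exact ⟨inv_mem ha, inv_mem ha', by rw [← mul_inv_rev, ha2, inv_one]⟩

theorem A_le (X : Subgroup G) : A X ≤ X := fun _ h => h.1

theorem A_le_cent (X : Subgroup G) : A X ≤ 𝐂[X] := fun _ h => h.2.1

theorem A_sq {X : Subgroup G} {a : G} (h : a ∈ A X) : a * a = 1 := h.2.2

theorem A_inv {X : Subgroup G} {a : G} (h : a ∈ A X) : a⁻¹ = a :=
  inv_eq_of_mul_eq_one_left (A_sq h)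

theorem cj_A (X : Subgroup G) (g : G) : cj(g, A X) = A cj(g, X) := by
  ext w
  rw [mem_cj]
  change _ ∧ _ ∧ _ ↔ _ ∧ _ ∧ _
  rw [← cj_cent, mem_cj, mem_cj]
  refine and_congr Iff.rfl (and_congr Iff.rfl ?_)
  rw [show g⁻¹ * w * g * (g⁻¹ * w * g) = g⁻¹ * (w * w) * g by group]
  constructor
  · intro h
    rw [show w * w = g * (g⁻¹ * (w * w) * g) * g⁻¹ by group, h]; group
  · intro h; rw [h]; group

theorem conj_A {X : Subgroup G} {a : G} (g : G) (h : a ∈ A X) : g * a * g⁻¹ ∈ A cj(g, X) :=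
  cj_A X g ▸ conj_mem_cj h

theorem norm_A (X : Subgroup G) : 𝐍[X] ≤ 𝐍[A X] := fun g hg => by
  rw [← cj_eq_iff, cj_A, cj_of_norm hg]

theorem pg_A (X : Subgroup G) : IsPGroup 2 (A X) :=
  pg_iff.2 fun x hx => ⟨1, by rw [pow_one, pow_two, A_sq hx]⟩

/-- The conjugacy class of the TI-subgroup. -/
structure Cl (D : Set (Subgroup G)) : Prop where
  cj_mem : ∀ {X}, X ∈ D → ∀ g : G, cj(g, X) ∈ D
  trans : ∀ {X Y}, X ∈ D → Y ∈ D → ∃ g : G, cj(g, X) = Y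
  ti : ∀ {X Y}, X ∈ D → Y ∈ D → ∀ {x : G}, x ∈ X → x ∈ Y → x ≠ 1 → X = Y
  comm : ∀ {X}, X ∈ D → X ≤ 𝐂[X]
  e4 : ∀ {X}, X ∈ D → ∀ x ∈ X, x * x * (x * x) = 1
  nel : ∀ {X}, X ∈ D → ∃ x ∈ X, x * x ≠ 1
  four : ∀ {X}, X ∈ D → ∃ a ∈ A X, ∃ b ∈ A X, a ≠ 1 ∧ b ≠ 1 ∧ a * b ≠ 1
  max : ∀ {X}, X ∈ D → ∀ P : Subgroup G, IsPGroup 2 P → P ≠ ⊥ → 𝐍[X] ≤ 𝐍[P] → 𝐍[P] ≤ 𝐍[X]
  chp : ∀ {X}, X ∈ D → ChP 2 𝐍[X]

/-- `S` is a member of the plane `F`. -/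
structure Mem (D : Set (Subgroup G)) (F S : Subgroup G) : Prop where
  mem : S ∈ D
  ab : F ≤ 𝐂[F]
  el : ∀ f ∈ F, f * f = 1
  norm : S ≤ 𝐍[F]
  ne : ∃ f ∈ F, f ∈ S ∧ f ≠ 1
  sq : ∀ s ∈ S, s * s ∈ F
  comm : ∀ s ∈ S, ∀ f ∈ F, ⁅s, f⁆ ∈ S
  fix : ∀ s ∈ S, s ∉ F → ∀ f ∈ F, s * f = f * s → f ∈ S

variable [Finite G] {D : Set (Subgroup G)} {X Y Z F S T : Subgroup G}

namespace Cl
variable (h : Cl D)
include h

theorem mc (hX : X ∈ D) {x y : G} (hx : x ∈ X) (hy : y ∈ X) : x * y = y * x :=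
  mem_cent.1 (h.comm hX hy) x hx

theorem memA (hX : X ∈ D) {a : G} : a ∈ A X ↔ a ∈ X ∧ a * a = 1 :=
  ⟨fun e => ⟨e.1, e.2.2⟩, fun e => ⟨e.1, h.comm hX e.1, e.2⟩⟩

theorem sqA (hX : X ∈ D) {x : G} (hx : x ∈ X) : x * x ∈ A X :=
  (h.memA hX).2 ⟨mul_mem hx hx, h.e4 hX x hx⟩

theorem pg (hX : X ∈ D) : IsPGroup 2 X :=
  pg_iff.2 fun x hx => ⟨2, by rw [← h.e4 hX x hx]; simp [pow_succ, mul_assoc]⟩

theorem exA (hX : X ∈ D) : ∃ a ∈ A X, a ≠ 1 :=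
  let ⟨a, ha, _, _, h1, _⟩ := h.four hX; ⟨a, ha, h1⟩

theorem ne_bot (hX : X ∈ D) : X ≠ ⊥ := fun e =>
  let ⟨_, ha, h1⟩ := h.exA hX; h1 (mem_bot.1 (e ▸ A_le X ha))

theorem eq_one (hX : X ∈ D) (hY : Y ∈ D) (hne : X ≠ Y) {x : G} (h1 : x ∈ X) (h2 : x ∈ Y) :
    x = 1 := by_contra fun e => hne (h.ti hX hY h1 h2 e)

theorem norm_of_conj (hX : X ∈ D) {x g : G} (hx : x ∈ X) (h1 : x ≠ 1) (e : g * x * g⁻¹ ∈ X) :
    g ∈ 𝐍[X] :=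
  cj_eq_iff.1 (h.ti (h.cj_mem hX g) hX (conj_mem_cj hx) e fun e' => h1 (by simpa using e'))

theorem norm_of_comm (hX : X ∈ D) {x g : G} (hx : x ∈ X) (h1 : x ≠ 1) (e : g * x = x * g) :
    g ∈ 𝐍[X] := h.norm_of_conj hX hx h1 (by rw [e, mul_inv_cancel_right]; exact hx)

theorem cardA (hX : X ∈ D) (hY : Y ∈ D) : Nat.card (A X) = Nat.card (A Y) := by
  obtain ⟨g, rfl⟩ := h.trans hX hY
  rw [← cj_A, card_cj]

theorem le_Q (hX : X ∈ D) : X ≤ pCoreOf 2 𝐍[X] := le_pCoreOf le_normalizer le_rfl (h.pg hX)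

theorem eq_of_norm_eq (hX : X ∈ D) (hY : Y ∈ D) (e : 𝐍[X] = 𝐍[Y]) : X = Y := by
  obtain ⟨g, rfl⟩ := h.trans hX hY
  rw [← cj_norm] at e
  refine (cj_of_norm (h.max hX _ (pg_core _) (fun e' => h.ne_bot hX (eq_bot_iff.2 (e' ▸ h.le_Q hX)))
    (le_norm_core _) ?_)).symm
  rw [← cj_eq_iff, cj_core, ← e]

end Cl

theorem comm_mem_of_norm {g x : G} (hg : g ∈ 𝐍[X]) (hx : x ∈ X) : ⁅x, g⁆ ∈ X := by
  rw [commutatorElement_def, mul_assoc, mul_assoc, ← mul_assoc g]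
  exact mul_mem hx (conj_mem_of_norm hg (inv_mem hx))

theorem comm_mem_of_norm' {g x : G} (hg : g ∈ 𝐍[X]) (hx : x ∈ X) : ⁅g, x⁆ ∈ X := by
  rw [← commutatorElement_inv]; exact inv_mem (comm_mem_of_norm hg hx)

namespace Mem

theorem cj (h : Cl D) (m : Mem D F S) (l : G) : Mem D cj(l, F) cj(l, S) where
  mem := h.cj_mem m.mem l
  ab := by rw [← cj_cent]; exact cj_mono l m.ab
  el := by
    rintro _ ⟨f, hf, rfl⟩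
    rw [← map_mul, m.el f hf, map_one]
  norm := by rw [← cj_norm]; exact cj_mono l m.norm
  ne := by
    obtain ⟨f, h1, h2, h3⟩ := m.ne
    exact ⟨_, conj_mem_cj h1, conj_mem_cj h2, fun e => h3 (by simpa using e)⟩
  sq := by
    rintro _ ⟨s, hs, rfl⟩
    rw [← map_mul]; exact mem_map_of_mem _ (m.sq s hs)
  comm := by
    rintro _ ⟨s, hs, rfl⟩ _ ⟨f, hf, rfl⟩
    rw [← map_commutatorElement]; exact mem_map_of_mem _ (m.comm s hs f hf)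
  fix := by
    rintro _ ⟨s, hs, rfl⟩ hs' _ ⟨f, hf, rfl⟩ e
    rw [← map_mul, ← map_mul] at e
    exact mem_map_of_mem _ (m.fix s hs (fun e' => hs' (mem_map_of_mem _ e')) f hf (cj_inj l e))

theorem cj' (h : Cl D) (m : Mem D F S) {l : G} (hl : l ∈ 𝐍[F]) : Mem D F cj(l, S) := by
  have := m.cj h l
  rwa [cj_of_norm hl] at this

theorem mc (m : Mem D F S) {f f' : G} (hf : f ∈ F) (hf' : f' ∈ F) : f * f' = f' * f :=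
  mem_cent.1 (m.ab hf') f hf

theorem exists_not (h : Cl D) (m : Mem D F S) : ∃ s ∈ S, s ∉ F :=
  let ⟨s, hs, e⟩ := h.nel m.mem; ⟨s, hs, fun e' => e (m.el s e')⟩

theorem norm_of (h : Cl D) (m : Mem D F S) {g w : G} (hg : g ∈ 𝐍[F]) (hw : w ∈ S) (hw' : w ∉ F)
    (e : ⁅g, w⁆ ∈ 𝐂[F]) : g ∈ 𝐍[S] := by
  obtain ⟨f, h1, h2, h3⟩ := m.ne
  have h4 := conj_mem_of_norm hg h1
  refine h.norm_of_conj m.mem h2 h3 (m.fix w hw hw' _ h4 ?_)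
  have h5 := mem_cent.1 e _ h4
  have h6 : g * w * g⁻¹ * (g * f * g⁻¹) = g * f * g⁻¹ * (g * w * g⁻¹) := by
    rw [conj_mul, conj_mul, h.mc m.mem hw h2]
  rw [show g * w * g⁻¹ = ⁅g, w⁆ * w by group, ← mul_assoc _ ⁅g, w⁆, h5, mul_assoc ⁅g, w⁆,
    mul_assoc ⁅g, w⁆] at h6
  exact mul_left_cancel h6

theorem exists_fix (m : Mem D F S) {g : G} (hg : g ∈ 𝐍[F]) (hg' : g ∈ 𝐍[S])
    (e : g * g ∈ 𝐂[F]) : ∃ f ∈ F, f ∈ S ∧ f ≠ 1 ∧ g * f = f * g := by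
  obtain ⟨f, h1, h2, h3⟩ := m.ne
  by_cases h4 : g * f = f * g
  · exact ⟨f, h1, h2, h3, h4⟩
  have h5 := conj_mem_of_norm hg h1
  refine ⟨f * (g * f * g⁻¹), mul_mem h1 h5, mul_mem h2 (conj_mem_of_norm hg' h2), fun e' => h4 ?_, ?_⟩
  · rw [← m.el f h1, mul_right_inj, mul_inv_eq_iff_eq_mul] at e'
    exact e'
  · rw [m.mc h1 h5, ← mul_inv_eq_iff_eq_mul, ← conj_mul, m.mc h5 h1,
      show g * (g * f * g⁻¹) * g⁻¹ = g * g * f * (g * g)⁻¹ by group, ← mem_cent.1 e f h1,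
      mul_inv_cancel_right, m.mc h1 h5]

theorem eq_of_norm (h : Cl D) (m : Mem D F S) (m' : Mem D F T) {g : G} (hg : g ∈ S) (hg' : g ∉ F)
    (e : g ∈ 𝐍[T]) : T = S := by
  obtain ⟨f, h1, h2, h3, h4⟩ := m'.exists_fix (m.norm hg) e (m.ab (m.sq g hg))
  exact h.ti m'.mem m.mem h2 (m.fix g hg hg' f h1 h4) h3

/-- The middle member. -/
theorem mid (h : Cl D) (m : Mem D F Z) {n z : G} (hn : n ∈ 𝐍[F]) (hn2 : n * n ∈ 𝐂[F])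
    (hn' : n ∉ 𝐍[Z]) (hz : z ∈ Z) (hz' : z ∉ F) :
    ∃ l ∈ zpowers (n * z), n ∈ 𝐍[cj(l, Z)] ∧ ⁅n⁻¹ * (l * z * l⁻¹), z⁆ ∈ 𝐂[F] := by
  have hzF := m.norm hz
  have hN : 𝐍[F] ≤ 𝐍[𝐂[F]] := norm_cent le_rfl
  obtain ⟨l, hl, s, hs, h1, h2, h3⟩ := dih_mod (hN hn) (hN hzF) hn2 (m.ab (m.sq z hz))
  have hlF : l ∈ 𝐍[F] := zpowers_le.2 (mul_mem hn hzF) hl
  have m' := m.cj' h hlF
  have hw : l * z * l⁻¹ ∈ cj(l, Z) := conj_mem_cj hz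
  have hw' : l * z * l⁻¹ ∉ F := fun e => hz' (by simpa [mul_assoc] using conj_mem_of_norm' hlF e)
  have hwF : l * z * l⁻¹ ∈ 𝐍[F] := m'.norm hw
  obtain ⟨w, hwe⟩ : ∃ w, w = l * z * l⁻¹ := ⟨_, rfl⟩
  rw [← hwe] at hw hw' hwF h3
  have key : ∀ {a b : G}, a ∈ 𝐍[𝐂[F]] → b ∈ 𝐍[𝐂[F]] → ⁅s, b⁆ ∈ 𝐂[F] → a * s * w⁻¹ ∈ 𝐂[F] →
      ⁅a⁻¹ * w, b⁆ ∈ 𝐂[F] := fun {a b} ha hb e1 e2 => by
    have e3 := conj_mem_of_norm' ha (inv_mem e2)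
    rw [show ⁅a⁻¹ * w, b⁆ = a⁻¹ * (a * s * w⁻¹)⁻¹ * a * ⁅s, b⁆ *
      (b * (a⁻¹ * (a * s * w⁻¹)⁻¹ * a)⁻¹ * b⁻¹) by group]
    exact mul_mem (mul_mem e3 e1) (conj_mem_of_norm hb (inv_mem e3))
  have key2 : ∀ {a : G}, a ∈ 𝐍[𝐂[F]] → ⁅a⁻¹ * w, a⁆ ∈ 𝐂[F] → ⁅a, w⁆ ∈ 𝐂[F] := fun {a} ha e => by
    rw [show ⁅a, w⁆ = (a * ⁅a⁻¹ * w, a⁆ * a⁻¹)⁻¹ by group]
    exact inv_mem (conj_mem_of_norm ha e)
  rcases h3 with h3 | ⟨h3, h4⟩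
  · exact ⟨l, hl, m'.norm_of h hn hw hw' (key2 (hN hn) (key (hN hn) (hN hn) h1 h3)),
      hwe ▸ key (hN hn) (hN hzF) h2 h3⟩
  · have e := m.eq_of_norm h m' hz hz'
      (m'.norm_of h hzF hw hw' (key2 (hN hzF) (key (hN hzF) (hN hzF) h2 h4)))
    rw [e] at hw
    have h5 : z⁻¹ * w ∉ F := fun e' => h3 (by
      rw [show s = z⁻¹ * (z * s * w⁻¹) * z * (z⁻¹ * w) by group]
      exact mul_mem (conj_mem_of_norm' (hN hzF) h4) (m.ab e'))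
    refine absurd (m.norm_of h hn (mul_mem (inv_mem hz) hw) h5 ?_) hn'
    rw [← commutatorElement_inv]
    exact inv_mem (key (hN hzF) (hN hn) h1 h4)

/-- Distinct members are conjugate. -/
theorem conj (h : Cl D) (m : Mem D F X) (m' : Mem D F Z) (hne : X ≠ Z) {x z : G} (hx : x ∈ X)
    (hx' : x ∉ F) (hz : z ∈ Z) (hz' : z ∉ F) :
    ∃ l ∈ zpowers (x * z), cj(l, Z) = X ∧ x⁻¹ * (l * z * l⁻¹) ∈ F := by
  obtain ⟨l, hl, h1, h2⟩ := m'.mid h (m.norm hx) (m.ab (m.sq x hx))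
    (fun e => hne (m.eq_of_norm h m' hx hx' e).symm) hz hz'
  have e := m.eq_of_norm h (m'.cj' h (zpowers_le.2 (mul_mem (m.norm hx) (m'.norm hz)) hl)) hx hx' h1
  refine ⟨l, hl, e, by_contra fun h3 => hne (m'.eq_of_norm h m hz hz' ?_)⟩
  refine m.norm_of h (m'.norm hz) (mul_mem (inv_mem hx) (e ▸ conj_mem_cj hz)) h3 ?_
  rw [← commutatorElement_inv]; exact inv_mem h2

theorem exists_move (h : Cl D) (m : Mem D F X) (m' : Mem D F Z) (hne : X ≠ Z) {x y : G}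
    (hx : x ∈ X) (hx' : x ∉ F) (hy : y ∈ X) (hy' : y ∉ F) :
    ∃ l ∈ X ⊔ Z, l ∈ 𝐍[X] ∧ y⁻¹ * (l * x * l⁻¹) ∈ F := by
  obtain ⟨z, hz, hz'⟩ := m'.exists_not h
  obtain ⟨l₁, h1, e1, f1⟩ := m.conj h m' hne hx hx' hz hz'
  obtain ⟨l₂, h2, e2, f2⟩ := m.conj h m' hne hy hy' hz hz'
  have k1 : l₁ ∈ X ⊔ Z := zpowers_le.2 (mul_mem_sup hx hz) h1
  have k2 : l₂ ∈ X ⊔ Z := zpowers_le.2 (mul_mem_sup hy hz) h2
  have k3 := mul_mem k2 (inv_mem k1)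
  refine ⟨l₂ * l₁⁻¹, k3, ?_, ?_⟩
  · rw [← cj_eq_iff, ← cj_cj]
    nth_rewrite 1 [← e1]
    rw [cj_inv_cj, e2]
  · rw [show y⁻¹ * (l₂ * l₁⁻¹ * x * (l₂ * l₁⁻¹)⁻¹) = y⁻¹ * (l₂ * z * l₂⁻¹) *
      (l₂ * l₁⁻¹ * (x⁻¹ * (l₁ * z * l₁⁻¹))⁻¹ * (l₂ * l₁⁻¹)⁻¹) by group]
    exact mul_mem f2 (conj_mem_of_norm (sup_le m.norm m'.norm k3) (inv_mem f1))

end Mem

end Cfsg.Agent.TIB
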