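import Mathlib
import Cfsg.Agent.TIB.A

/-! Pairs of type II, the trichotomy, conjugates inside a 2-group. -/

set_option autoImplicit false
set_option linter.unusedSectionVars false
open Cfsg

namespace Cfsg.Agent.TIB

open Cfsg.Agent.Loc.Mss Cfsg.Agent.GT Subgroup
open scoped commutatorElement

variable {G : Type*} [Group G]

theorem comm_mul_r (x a b : G) : ⁅x, a * b⁆ = ⁅x, a⁆ * (a * ⁅x, b⁆ * a⁻¹) := by group

theorem comm_mul_l (a b x : G) : ⁅a * b, x⁆ = a * ⁅b, x⁆ * a⁻¹ * ⁅a, x⁆ := by group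

theorem comm_one {a b : G} : ⁅a, b⁆ = 1 ↔ a * b = b * a := commutatorElement_eq_one_iff_mul_comm

theorem cc {a b : G} (e : a * b = b * a) : a * b * a⁻¹ = b := by rw [e, mul_inv_cancel_right]

theorem comm_of_eq_r {x a b : G} (e : ⁅x, a⁆ = ⁅x, b⁆) : x * (b⁻¹ * a) = b⁻¹ * a * x := by
  rw [← comm_one, show ⁅x, b⁻¹ * a⁆ = x * b⁻¹ * x⁻¹ * (⁅x, a⁆ * ⁅x, b⁆⁻¹) * (x * b * x⁻¹) *
    (x * b⁻¹ * x⁻¹ * (⁅x, b⁆ * ⁅x, a⁆⁻¹) * ⁅x, a⁆ * b) * ⁅x, b⁻¹⁆⁻¹ * ⁅x, b⁻¹⁆ *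
    (b⁻¹ * ⁅x, b⁆⁻¹ * x * b * x⁻¹) by group, e]
  group

theorem comm_of_eq_l {x a b : G} (e : ⁅a, x⁆ = ⁅b, x⁆) : b⁻¹ * a * x = x * (b⁻¹ * a) :=
  (comm_of_eq_r (by rw [← commutatorElement_inv, e, commutatorElement_inv])).symm

/-- Pairs of type II. -/
structure Two (D : Set (Subgroup G)) (X Z : Subgroup G) : Prop where
  mX : X ∈ D
  mZ : Z ∈ D
  ne : X ≠ Z
  nX : ∀ x ∈ X, x ∈ 𝐍[Z] ↔ x * x = 1
  nZ : ∀ z ∈ Z, z ∈ 𝐍[X] ↔ z * z = 1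

variable [Finite G] {D : Set (Subgroup G)} {X Y Z F S T B : Subgroup G}

theorem Cl.sq_comm (h : Cl D) (hX : X ∈ D) {x g : G} (hx : x ∈ X) (hg : g ∈ 𝐍[X]) :
    ⁅x, g⁆ * ⁅x, g⁆ = ⁅x * x, g⁆ := by
  rw [comm_mul_l, cc (h.mc hX hx (comm_mem_of_norm hg hx))]

theorem Cl.comm_A (h : Cl D) (hX : X ∈ D) {x g : G} (hx : x ∈ X) (hg : g ∈ 𝐍[X])
    (e : g ∈ 𝐂[A X]) : ⁅x, g⁆ ∈ A X :=
  (h.memA hX).2 ⟨comm_mem_of_norm hg hx, by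
    rw [h.sq_comm hX hx hg, comm_one]; exact mem_cent.1 e _ (h.sqA hX hx)⟩

theorem Cl.norm_of_centA (h : Cl D) (hX : X ∈ D) : 𝐂[A X] ≤ 𝐍[X] := fun _ hg =>
  let ⟨a, ha, h1⟩ := h.exA hX
  h.norm_of_comm hX (A_le X ha) h1 (mem_cent.1 hg a ha).symm

theorem Cl.pre_cent (h : Cl D) (hX : X ∈ D) (hZ : Z ∈ D) (hne : X ≠ Z) :
    X ⊓ 𝐍[Z] ≤ 𝐂[Z ⊓ 𝐍[X]] := fun _ hr => mem_cent.2 fun _ hr' => comm_one.1
  (h.eq_one hX hZ hne (comm_mem_of_norm' hr'.2 hr.1) (comm_mem_of_norm hr.2 hr'.1))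

theorem Cl.pre (h : Cl D) (hX : X ∈ D) (hZ : Z ∈ D) (hne : X ≠ Z)
    (e1 : ∀ r ∈ X ⊓ 𝐍[Z], r * r = 1) (e2 : ∀ r ∈ Z ⊓ 𝐍[X], r * r = 1)
    (n1 : ∃ r ∈ X ⊓ 𝐍[Z], r ≠ 1) (n2 : ∃ r ∈ Z ⊓ 𝐍[X], r ≠ 1) :
    Mem D ((X ⊓ 𝐍[Z]) ⊔ (Z ⊓ 𝐍[X])) X := by
  have c1 := h.pre_cent hX hZ hne
  have c2 : X ⊓ 𝐍[Z] ≤ 𝐂[X ⊓ 𝐍[Z]] := inf_le_left.trans ((h.comm hX).trans (cent_anti inf_le_left))
  have c3 : Z ⊓ 𝐍[X] ≤ 𝐂[Z ⊓ 𝐍[X]] := inf_le_left.trans ((h.comm hZ).trans (cent_anti inf_le_left))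
  have hm := fun g => mem_sup_norm (norm_of_cent (cent_comm c1)) (g := g)
  have hFX : (X ⊓ 𝐍[Z]) ⊔ (Z ⊓ 𝐍[X]) ≤ 𝐍[X] := sup_le (norm_of_le inf_le_left) inf_le_right
  have k1 : ∀ x ∈ X, ∀ r ∈ Z ⊓ 𝐍[X], r ≠ 1 → x * (r * x * r⁻¹) ∈ X ⊓ 𝐍[Z] := fun x hx r hr h1 => by
    have h2 := conj_mem_of_norm hr.2 hx
    refine ⟨mul_mem hx h2, h.norm_of_comm hZ hr.1 h1 ?_⟩
    rw [inv_eq_of_mul_eq_one_left (e2 r hr)] at h2 ⊢
    calc x * (r * x * r) * r = x * r * x * (r * r) := by group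
      _ = r * r * x * (r * x) := by rw [e2 r hr]; group
      _ = r * (r * x * r * x) := by group
      _ = _ := by rw [h.mc hX h2 hx]
  have k2 : ∀ x ∈ X, x * x ∈ X ⊓ 𝐍[Z] := fun x hx => by
    obtain ⟨r, hr, h1⟩ := n2
    refine ⟨mul_mem hx hx, h.norm_of_comm hZ hr.1 h1 ?_⟩
    have h2 := conj_mem_of_norm hr.2 hx
    have h3 := e1 _ (k1 x hx r hr h1)
    rw [mul_assoc x, ← mul_assoc _ x, h.mc hX h2 hx, mul_assoc x, ← mul_assoc, conj_mul,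
      ← h.e4 hX x hx, mul_right_inj, mul_inv_eq_iff_eq_mul] at h3
    exact h3.symm
  refine ⟨hX, sup_le (le_cent_sup c2 c1) (le_cent_sup (cent_comm c1) c3), fun f hf => ?_, ?_, ?_,
    fun s hs => mem_sup_left (k2 s hs), fun s hs f hf => comm_mem_of_norm (hFX hf) hs, ?_⟩
  · obtain ⟨r, hr, r', hr', rfl⟩ := (hm f).1 hf
    rw [mul_assoc, ← mul_assoc r', mem_cent.1 (c1 hr) r' hr', mul_assoc, e2 r' hr', mul_one, e1 r hr]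
  · refine norm_of_forall_cj_le fun x hx => ?_
    rw [cj_sup]
    refine sup_le ((cj_of_cent ?_).le.trans le_sup_left) (cj_le_iff.2 fun r hr => ?_)
    · exact cent_anti inf_le_left (h.comm hX hx)
    by_cases h1 : r = 1
    · simp [h1]
    have h2 := conj_mem_of_norm hr.2 hx
    rw [show x * r * x⁻¹ = x * x * (r * x * r⁻¹ * x)⁻¹ * r by group, ← h.mc hX hx h2]
    exact mul_mem_sup (mul_mem (k2 x hx) (inv_mem (k1 x hx r hr h1))) hr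
  · obtain ⟨r, hr, h1⟩ := n1
    exact ⟨r, mem_sup_left hr, hr.1, h1⟩
  · intro s hs hs' f hf e
    obtain ⟨r, hr, r', hr', rfl⟩ := (hm f).1 hf
    by_cases h1 : r' = 1
    · rw [h1, mul_one]; exact hr.1
    rw [← mul_assoc, h.mc hX hs hr.1, mul_assoc, mul_assoc, mul_right_inj] at e
    exact absurd (mem_sup_left (mem_inf.2 ⟨hs, h.norm_of_comm hZ hr'.1 h1 e⟩)) hs'

/-- The trichotomy. -/
theorem Cl.tri (h : Cl D) (hX : X ∈ D) (hZ : Z ∈ D) {x : G} (hx : x ∈ X) (h1 : x ≠ 1)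
    (hn : x ∈ 𝐍[Z]) : X ≤ 𝐂[Z] ∨ Two D X Z := by
  refine or_iff_not_imp_left.2 fun hc => ?_
  have hne : X ≠ Z := fun e => hc (e ▸ h.comm hX)
  have el : ∀ {X Z}, X ∈ D → Z ∈ D → X ≠ Z → ¬ X ≤ 𝐂[Z] → ∀ r ∈ X ⊓ 𝐍[Z], r * r = 1 :=
    fun {X Z} hX hZ hne hc r hr => by
      obtain ⟨g, rfl⟩ := h.trans hX hZ
      rcases S1781.result X (h.pg hX) (le_centralizer_iff_isMulCommutative.1 (h.comm hX))
        (fun k => or_iff_not_imp_left.2 fun e => eq_bot_iff.2 fun y hy =>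
          h.eq_one (h.cj_mem hX k) hX e hy.1 hy.2) g hne.symm with e | e
      · rw [← pow_two]; exact e.2 r hr
      · exact absurd (comm_eq_bot_iff.1 e) hc
  have e1 := el hX hZ hne hc
  have e2 := el hZ hX hne.symm fun e => hc (cent_comm e)
  have n2 : ∃ r ∈ Z ⊓ 𝐍[X], r ≠ 1 := by
    obtain ⟨r, hr1⟩ := (ne_bot_iff_exists_ne_one).1 (PG.inf_centralizer_ne_bot_of_isPGroup
      (h.pg hZ) ((h.pg hX).to_le (zpowers_le.2 hx)) (zpowers_le.2 hn) (h.ne_bot hZ))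
    exact ⟨r, ⟨r.2.1, h.norm_of_comm hX hx h1 (mem_cent.1 r.2.2 x (mem_zpowers x)).symm⟩,
      fun e => hr1 (Subtype.ext e)⟩
  have m := h.pre hX hZ hne e1 e2 ⟨x, ⟨hx, hn⟩, h1⟩ n2
  have m' := h.pre hZ hX hne.symm e2 e1 n2 ⟨x, ⟨hx, hn⟩, h1⟩
  have key : ∀ {X Z}, X ≠ Z → Mem D ((X ⊓ 𝐍[Z]) ⊔ (Z ⊓ 𝐍[X])) X →
      Mem D ((X ⊓ 𝐍[Z]) ⊔ (Z ⊓ 𝐍[X])) Z → ∀ x ∈ X, x * x = 1 → x ∈ 𝐍[Z] :=
    fun {X Z} hne m m' a ha h2 => by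
      by_contra h3
      obtain ⟨y, hy, hy2⟩ := h.nel m.mem
      obtain ⟨l, -, hl, e⟩ := m.exists_move h m' hne ha
        (fun e => h3 (sup_le inf_le_right (norm_of_le inf_le_left) e)) hy fun e => hy2 (m.el y e)
      have h4 := conj_mem_of_norm hl ha
      have h5 := m.el _ e
      rw [mul_assoc y⁻¹, ← mul_assoc _ y⁻¹, h.mc m.mem h4 (inv_mem hy), mul_assoc y⁻¹, conj_mul, h2]
        at h5
      exact hy2 (by simpa [← mul_inv_rev] using h5)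
  exact ⟨hX, hZ, hne, fun x hx => ⟨fun e => e1 x ⟨hx, e⟩, key hne m (sup_comm (Z ⊓ 𝐍[X]) _ ▸ m') x hx⟩,
    fun z hz => ⟨fun e => e2 z ⟨hz, e⟩, key hne.symm m' (sup_comm (X ⊓ 𝐍[Z]) _ ▸ m) z hz⟩⟩

namespace Two

theorem symm (t : Two D X Z) : Two D Z X := ⟨t.mZ, t.mX, t.ne.symm, t.nZ, t.nX⟩

theorem cj (h : Cl D) (t : Two D X Z) (g : G) : Two D cj(g, X) cj(g, Z) := by
  have k : ∀ {X Z : Subgroup G}, (∀ x ∈ X, x ∈ 𝐍[Z] ↔ x * x = 1) →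
      ∀ x ∈ cj(g, X), x ∈ 𝐍[cj(g, Z)] ↔ x * x = 1 := fun {X Z} e => by
    rintro _ ⟨x, hx, rfl⟩
    rw [← cj_norm, ← map_mul, map_eq_one_iff _ (cj_inj g), ← e x hx]
    exact mem_map_iff_mem (cj_inj g)
  exact ⟨h.cj_mem t.mX g, h.cj_mem t.mZ g, fun e => t.ne (cj_eq_cj.1 e), k t.nX, k t.nZ⟩

theorem cj' (h : Cl D) (t : Two D X Z) {g : G} (hg : g ∈ 𝐍[X]) : Two D X cj(g, Z) := by
  have := t.cj h g
  rwa [cj_of_norm hg] at this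

theorem A_eq (h : Cl D) (t : Two D X Z) : A X = X ⊓ 𝐍[Z] := by
  ext a
  rw [h.memA t.mX, mem_inf]
  exact and_congr_right fun ha => (t.nX a ha).symm

theorem A_norm (h : Cl D) (t : Two D X Z) : A X ≤ 𝐍[Z] := t.A_eq h ▸ inf_le_right

theorem centA (h : Cl D) (t : Two D X Z) : A X ≤ 𝐂[A Z] := by
  rw [t.A_eq h, t.symm.A_eq h]; exact h.pre_cent t.mX t.mZ t.ne

theorem mc (h : Cl D) (t : Two D X Z) {a b : G} (ha : a ∈ A X) (hb : b ∈ A Z) : a * b = b * a :=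
  (mem_cent.1 (t.centA h ha) b hb).symm

theorem mem (h : Cl D) (t : Two D X Z) : Mem D (A X ⊔ A Z) X := by
  have := h.pre t.mX t.mZ t.ne (fun r hr => (t.nX r hr.1).1 hr.2) (fun r hr => (t.nZ r hr.1).1 hr.2)
    (t.A_eq h ▸ h.exA t.mX) (t.symm.A_eq h ▸ h.exA t.mZ)
  rwa [← t.A_eq h, ← t.symm.A_eq h] at this

theorem mem' (h : Cl D) (t : Two D X Z) : Mem D (A X ⊔ A Z) Z := sup_comm (A Z) _ ▸ t.symm.mem h

theorem mem_pl (h : Cl D) (t : Two D X Z) {f : G} :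
    f ∈ A X ⊔ A Z ↔ ∃ a ∈ A X, ∃ b ∈ A Z, a * b = f :=
  mem_sup_norm (norm_of_cent (t.symm.centA h))

theorem not_pl (h : Cl D) (t : Two D X Z) {x : G} (hx : x ∈ X) (hx' : x ∉ A X) : x ∉ A X ⊔ A Z :=
  fun e => hx' ((h.memA t.mX).2 ⟨hx, (t.mem h).el x e⟩)

theorem comm_mem (h : Cl D) (t : Two D X Z) {x b : G} (hx : x ∈ X) (hb : b ∈ A Z) :
    ⁅x, b⁆ ∈ A X := h.comm_A t.mX hx (t.symm.A_norm h hb) (t.symm.centA h hb)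

theorem inj (h : Cl D) (t : Two D X Z) {x b : G} (hx : x ∈ X) (hx' : x ∉ A X) (hb : b ∈ Z)
    (e : x * b = b * x) : b = 1 := by_contra fun h1 =>
  hx' (t.A_eq h ▸ ⟨hx, h.norm_of_comm t.mZ hb h1 e⟩)

theorem surj (h : Cl D) (t : Two D X Z) {x a : G} (hx : x ∈ X) (hx' : x ∉ A X) (ha : a ∈ A X) :
    ∃ b ∈ A Z, ⁅x, b⁆ = a :=
  Loc.TIL.surj_of_inj (h.cardA t.mX t.mZ).le (fun b => ⁅x, b⁆) (fun _ hb => t.comm_mem h hx hb)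
    (fun _ hb _ hb' e => (inv_mul_eq_one.1 (t.inj h hx hx' (A_le Z (mul_mem (inv_mem hb') hb))
      (comm_of_eq_r e))).symm) ha

theorem not_cent (h : Cl D) (t : Two D X Z) : ¬ X ≤ 𝐂[Z] := fun e =>
  let ⟨x, hx, h1⟩ := h.nel t.mX; h1 ((t.nX x hx).1 (norm_of_cent e hx))

theorem not_pg (h : Cl D) (t : Two D X Z) (hS : IsPGroup 2 S) (h1 : X ≤ S) (h2 : Z ≤ S) : False := by
  have m := t.mem h
  have m' := t.mem' h
  obtain ⟨f, hf1⟩ := (ne_bot_iff_exists_ne_one).1 (PG.inf_centralizer_ne_bot_of_isPGroup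
    (hS.to_le (sup_le ((A_le X).trans h1) ((A_le Z).trans h2))) (hS.to_le (sup_le h1 h2))
    (sup_le m.norm m'.norm) fun e => let ⟨f, a, _, b⟩ := m.ne; b (mem_bot.1 (e ▸ a)))
  obtain ⟨x, hx, hx'⟩ := m.exists_not h
  obtain ⟨z, hz, hz'⟩ := m'.exists_not h
  exact hf1 (Subtype.ext (h.eq_one t.mX t.mZ t.ne
    (m.fix x hx hx' f f.2.1 (mem_cent.1 f.2.2 x (mem_sup_left hx)))
    (m'.fix z hz hz' f f.2.1 (mem_cent.1 f.2.2 z (mem_sup_right hz)))))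

end Two

theorem Cl.centA (h : Cl D) (hX : X ∈ D) (hZ : Z ∈ D) {x : G} (hx : x ∈ X) (h1 : x ≠ 1)
    (hn : x ∈ 𝐍[Z]) : A X ≤ 𝐂[A Z] :=
  (h.tri hX hZ hx h1 hn).elim (fun e => (A_le X).trans (e.trans (cent_anti (A_le Z)))) (·.centA h)

theorem Cl.centA' (h : Cl D) (hX : X ∈ D) (hZ : Z ∈ D) {x z : G} (hx : x ∈ X) (h1 : x ≠ 1)
    (hz : z ∈ Z) (h2 : z ≠ 1) (e : x * z = z * x) : A X ≤ 𝐂[A Z] :=
  h.centA hX hZ hx h1 (h.norm_of_comm hZ hz h2 e)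

theorem Cl.tri' (h : Cl D) (hX : X ∈ D) (hZ : Z ∈ D) (e : A X ≤ 𝐂[A Z]) : X ≤ 𝐂[Z] ∨ Two D X Z :=
  let ⟨_, ha, h1⟩ := h.exA hX; h.tri hX hZ (A_le X ha) h1 (h.norm_of_centA hZ (e ha))

theorem Cl.cent_of_norm (h : Cl D) (hX : X ∈ D) (hZ : Z ∈ D) {x : G} (hx : x ∈ X) (h1 : x ∉ A X)
    (hn : x ∈ 𝐍[Z]) : X ≤ 𝐂[Z] :=
  (h.tri hX hZ hx (fun e => h1 (e ▸ one_mem _)) hn).elim id fun t => absurd (t.A_eq h ▸ ⟨hx, hn⟩) h1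

theorem Cl.exN (h : Cl D) (hX : X ∈ D) : ∃ x ∈ X, x ∉ A X :=
  let ⟨x, hx, e⟩ := h.nel hX; ⟨x, hx, fun e' => e (A_sq e')⟩

namespace Mem

theorem two (h : Cl D) (m : Mem D F X) (m' : Mem D F Z) (hne : X ≠ Z) (h1 : A X ≤ F)
    (h2 : A Z ≤ F) : Two D X Z := by
  refine (h.tri' m.mem m'.mem (h1.trans (m.ab.trans (cent_anti h2)))).resolve_left fun e => ?_
  obtain ⟨x, hx, hx'⟩ := m.exists_not h
  exact hne (m.eq_of_norm h m' hx hx' (norm_of_cent e hx)).symm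

theorem decomp (h : Cl D) (m : Mem D F X) (t : Two D X Z) (h1 : A X ≤ F) (h2 : A Z ≤ F) {f : G}
    (hf : f ∈ F) : ∃ a ∈ A X, ∃ b ∈ A Z, a * b = f := by
  obtain ⟨x, hx, hx'⟩ := m.exists_not h
  have h3 : ⁅x, f⁆ ∈ F := comm_mem_of_norm' (m.norm hx) hf
  obtain ⟨b, hb, e⟩ := t.surj h hx (fun e => hx' (h1 e))
    ((h.memA m.mem).2 ⟨m.comm x hx f hf, m.el _ h3⟩)
  have h4 := mul_mem (inv_mem hf) (h2 hb)
  refine ⟨f⁻¹ * b, (h.memA m.mem).2 ⟨m.fix x hx hx' _ h4 (comm_of_eq_r e), m.el _ h4⟩, b, hb, ?_⟩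
  rw [mul_assoc, A_sq hb, mul_one, inv_eq_of_mul_eq_one_left (m.el f hf)]

end Mem

/-- A minimal non-commuting pair inside a 2-group has class two. -/
theorem min_pair {𝓐 : Set (Subgroup G)} (hc : ∀ X ∈ 𝓐, ∀ g : G, cj(g, X) ∈ 𝓐)
    (ha : ∀ X ∈ 𝓐, X ≤ 𝐂[X]) (S : Subgroup G) (hS : IsPGroup 2 S) (X : Subgroup G) (hX : X ∈ 𝓐)
    (Y : Subgroup G) (hY : Y ∈ 𝓐) (h1 : X ≤ S) (h2 : Y ≤ S) (hn : ¬ X ≤ 𝐂[Y]) :
    ∃ X ∈ 𝓐, ∃ Y ∈ 𝓐, X ≤ S ∧ Y ≤ S ∧ ¬ X ≤ 𝐂[Y] ∧ ∀ x ∈ X, ∀ y ∈ Y, ⁅x, y⁆ ∈ 𝐂[X] ⊓ 𝐂[Y] := by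
  induction S using WellFoundedLT.induction generalizing X Y with
  | ind S ih =>
  by_contra hcon
  have key : ∀ X ∈ 𝓐, X < S → ncl S X ≤ 𝐂[ncl S X] := fun X hX hlt => by
    obtain ⟨K, k1, k2, k3, k4⟩ := PG.exists_invariant_relIndex_eq hS (hS.to_le hlt.le)
      (norm_of_le hlt.le) le_normalizer hlt
    have k5 : K < S := lt_of_le_of_ne k2 fun e => by simp [e] at k3
    have k6 := ncl_le k1 (PG.le_normalizer_of_relIndex_prime hS k2 k3)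
    refine ncl_le_iff.2 fun g hg => cent_comm (ncl_le_iff.2 fun g' hg' => by_contra fun e => hcon ?_)
    obtain ⟨X, a1, Y, a2, a3, a4, a5⟩ := ih K k5 (hS.to_le k2) _ (hc X hX g') _ (hc X hX g)
      ((cj_le_ncl X hg').trans k6) ((cj_le_ncl X hg).trans k6) e
    exact ⟨X, a1, Y, a2, a3.trans k2, a4.trans k2, a5⟩
  have k1 := key X hX (lt_of_le_of_ne h1 fun e => hn ((ha X hX).trans (cent_anti (e ▸ h2))))
  have k2 := key Y hY (lt_of_le_of_ne h2 fun e => hn (cent_comm ((ha Y hY).trans (cent_anti (e ▸ h1)))))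
  exact hcon ⟨X, hX, Y, hY, h1, h2, hn, fun x hx y hy =>
    ⟨cent_anti (le_ncl S X) (k1 (comm_mem_of_norm (le_norm_ncl S X (h2 hy)) (le_ncl S X hx))),
      cent_anti (le_ncl S Y) (k2 (comm_mem_of_norm' (le_norm_ncl S Y (h1 hx)) (le_ncl S Y hy)))⟩⟩

/-- Conjugates inside a 2-group commute. -/
theorem Cl.cent_of_pg (h : Cl D) (hS : IsPGroup 2 S) (hX : X ∈ D) (hY : Y ∈ D) (h1 : X ≤ S)
    (h2 : Y ≤ S) : X ≤ 𝐂[Y] := by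
  by_contra hn
  obtain ⟨X, hX, Y, hY, h1, h2, hn, e⟩ := min_pair (fun _ hX g => h.cj_mem hX g)
    (fun _ hX => h.comm hX) S hS X hX Y hY h1 h2 hn
  obtain ⟨x, hx, hx2⟩ := h.nel hX
  obtain ⟨y, hy, hy1⟩ := h.exA hY
  have h3 := e x hx y (A_le Y hy)
  have h4 : ⁅x * x, y⁆ = ⁅x, y * y⁆ := by
    rw [comm_mul_l, comm_mul_r, cc (mem_cent.1 h3.1 x hx), cc (mem_cent.1 h3.2 y (A_le Y hy))]
  rw [A_sq hy, commutatorElement_one_right, comm_one] at h4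
  exact (h.tri hX hY (mul_mem hx hx) hx2 (h.norm_of_comm hY (A_le Y hy) hy1 h4)).elim hn
    fun t => t.not_pg h hS h1 h2

/-- The four-group trick. -/
theorem four_trick {V N : Subgroup G} (hV : V ≤ 𝐂[V]) {a b x : G} (ha : a ∈ 𝐍[V]) (hb : b ∈ 𝐍[V])
    (ha2 : a * a = 1) (hb2 : b * b = 1) (hab : a * b = b * a) (hx : x ∈ V)
    (hc : b * ⁅a, x * x⁆ = ⁅a, x * x⁆ * b)
    (hN : ∀ g : G, g * a = a * g ∨ g * b = b * g ∨ g * (b * a) = b * a * g → g ∈ N) :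
    x * x ∈ N := by
  have mc : ∀ {u v : G}, u ∈ V → v ∈ V → u * v = v * u := fun hu hv => mem_cent.1 (hV hv) _ hu
  have k : ∀ c : G, c ∈ 𝐍[V] → c * c = 1 → x * (c * x * c⁻¹) * c = c * (x * (c * x * c⁻¹)) :=
    fun c hc h2 => by
      nth_rewrite 2 [mc hx (conj_mem_of_norm hc hx)]
      rw [inv_eq_of_mul_eq_one_left h2]
      calc x * (c * x * c) * c = x * c * x * (c * c) := by group
        _ = c * c * x * (c * x) := by rw [h2]; group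
        _ = _ := by group
  have hba2 : b * a * (b * a) = 1 := by
    rw [mul_assoc, ← mul_assoc a, hab, mul_assoc, ha2, mul_one, hb2]
  have n1 := hN _ (Or.inl (k a ha ha2))
  have n2 := hN _ (Or.inr (Or.inl (k b hb hb2)))
  have n3 := hN _ (Or.inr (Or.inr (k _ (mul_mem hb ha) hba2)))
  have e1 : a * (a * x * a⁻¹) * a⁻¹ = x := by
    rw [show a * (a * x * a⁻¹) * a⁻¹ = a * a * x * (a * a)⁻¹ by group, ha2]; group
  have e2 : a * (b * x * b⁻¹) * a⁻¹ = b * a * x * (b * a)⁻¹ := by rw [← hab]; group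
  have e3 : a * (b * a * x * (b * a)⁻¹) * a⁻¹ = b * x * b⁻¹ := by
    rw [← hab, show a * (a * b * x * (a * b)⁻¹) * a⁻¹ = a * a * (b * x * b⁻¹) * (a * a)⁻¹ by group,
      ha2]; group
  have e4 : b * a * x * (b * a)⁻¹ * (b * a * x * (b * a)⁻¹) =
      a * x * a⁻¹ * (a * x * a⁻¹) * (x * x)⁻¹ * (b * x * b⁻¹ * (b * x * b⁻¹)) := by
    calc _ = b * ⁅a, x * x⁆ * (x * x) * b⁻¹ := by group
      _ = _ := by rw [hc]; group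
  have h1 := conj_mem_of_norm ha hx
  have h2 := conj_mem_of_norm hb hx
  have h3 := conj_mem_of_norm (mul_mem hb ha) hx
  generalize e0 : a * x * a⁻¹ = x₁ at *
  generalize b * x * b⁻¹ = x₂ at *
  generalize b * a * x * (b * a)⁻¹ = x₃ at *
  have key : x₁⁻¹ * x * x₃ * x₂⁻¹ = x⁻¹ * x₁ * x₂ * x₃⁻¹ ∧
      x * x = x * x₁ * (x * x₂) * (x * x₃)⁻¹ * (x⁻¹ * x₁ * x₂ * x₃⁻¹)⁻¹ := by
    lift x to V using hx
    lift x₁ to V using h1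
    lift x₂ to V using h2
    lift x₃ to V using h3
    let _ : CommGroup V := { (inferInstance : Group V) with
      mul_comm := fun u v => Subtype.ext (mc u.2 v.2) }
    norm_cast at e4 ⊢
    refine ⟨?_, ?_⟩
    · rw [← mul_inv_eq_one, ← mul_inv_eq_one.2 e4]
      apply Additive.ofMul.injective
      simp only [ofMul_mul, ofMul_inv]
      abel
    · apply Additive.ofMul.injective
      simp only [ofMul_mul, ofMul_inv]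
      abel
  have e5 : a * (x⁻¹ * x₁ * x₂ * x₃⁻¹) * a⁻¹ = x⁻¹ * x₁ * x₂ * x₃⁻¹ := by
    rw [← conj_mul, ← conj_mul, ← conj_mul, ← conj_inv, ← conj_inv, e0, e1, e2, e3, key.1]
  rw [key.2]
  exact mul_mem (mul_mem (mul_mem n1 n2) (inv_mem n3))
    (inv_mem (hN _ (Or.inl (mul_inv_eq_iff_eq_mul.1 e5).symm)))

end Cfsg.Agent.TIB
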