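import Mathlib
import Cfsg.Agent.TIB.B

/-! Triangles. -/

set_option autoImplicit false
set_option linter.unusedSectionVars false
open Cfsg

namespace Cfsg.Agent.TIB

open Cfsg.Agent.Loc.Mss Cfsg.Agent.GT Subgroup
open scoped commutatorElement

variable {G : Type*} [Group G]

/-- No nontrivial involutions commute. -/
def Far (Z Z' : Subgroup G) : Prop := ∀ a ∈ A Z, ∀ b ∈ A Z', a * b = b * a → a = 1 ∨ b = 1

theorem Far.symm {Z Z' : Subgroup G} (f : Far Z Z') : Far Z' Z :=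
  fun a ha b hb e => (f b hb a ha e.symm).symm

structure Tri (D : Set (Subgroup G)) (Y Z Z' : Subgroup G) : Prop where
  t₁ : Two D Y Z
  t₂ : Two D Y Z'
  far : Far Z Z'
  comm : ∀ a ∈ A Z, ∀ b ∈ A Z', ⁅a, b⁆ ∈ A Y

/-- `|X| = |A X|²`. -/
def Full (D : Set (Subgroup G)) : Prop := ∀ X ∈ D, Nat.card X = Nat.card (A X) * Nat.card (A X)

variable [Finite G] {D : Set (Subgroup G)} {X Y Z Z' F S T B : Subgroup G}

theorem Cl.far (h : Cl D) (hZ : Z ∈ D) (hZ' : Z' ∈ D) (e : ¬ A Z ≤ 𝐂[A Z']) : Far Z Z' :=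
  fun _ ha _ hb e' => by_contra fun h1 => e (h.centA' hZ hZ' (A_le _ ha) (fun e => h1 (Or.inl e))
    (A_le _ hb) (fun e => h1 (Or.inr e)) e')

theorem swap_norm {n : G} (e : n * n ∈ 𝐂[A Z]) : n ∈ 𝐍[A Z ⊔ A cj(n, Z)] := by
  rw [← cj_eq_iff, cj_sup, ← cj_A, cj_cj, cj_of_cent e, sup_comm]

theorem swap_cent {n : G} (e : n * n ∈ 𝐂[A Z]) : n * n ∈ 𝐂[A Z ⊔ A cj(n, Z)] := by
  rw [cent_sup, ← cj_A, ← cj_cent]
  exact ⟨e, mem_cj.2 (by simpa [mul_assoc] using e)⟩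

theorem Two.exists_mid (h : Cl D) {n : G} (t : Two D Z cj(n, Z)) (e : n * n ∈ 𝐂[A Z]) :
    ∃ l ∈ zpowers n ⊔ Z, Mem D (A Z ⊔ A cj(n, Z)) cj(l, Z) ∧ A cj(l, Z) ≤ A Z ⊔ A cj(n, Z) ∧
      ∃ f ∈ A Z ⊔ A cj(n, Z), f ∈ cj(l, Z) ∧ f ≠ 1 ∧ n * f = f * n := by
  have m := t.mem h
  obtain ⟨z, hz, hz'⟩ := m.exists_not h
  obtain ⟨l, hl, h1, -⟩ := m.mid h (swap_norm e) (swap_cent e) (fun e' => t.ne (cj_of_norm e').symm)
    hz hz'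
  have h2 : l ∈ 𝐍[A Z ⊔ A cj(n, Z)] := zpowers_le.2 (mul_mem (swap_norm e) (m.norm hz)) hl
  exact ⟨l, zpowers_le.2 (mul_mem_sup (mem_zpowers n) hz) hl, m.cj' h h2,
    cj_A Z l ▸ cj_le_of_norm le_sup_left h2, (m.cj' h h2).exists_fix (swap_norm e) h1 (swap_cent e)⟩

theorem Cl.mk_mid (h : Cl D) (hZ' : Z' ∈ D) (f : Far Z Z')
    {b : G} (hb : b ∈ A Z') (t : Two D Z cj(b, Z)) :
    ∃ l ∈ zpowers b ⊔ Z, Two D cj(l, Z) Z ∧ ∀ a ∈ A Z, ⁅a, b⁆ ∈ A cj(l, Z) := by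
  have e : b * b ∈ 𝐂[A Z] := by rw [A_sq hb]; exact one_mem _
  have hb1 : b ≠ 1 := fun e' => t.ne (by rw [e', cj_one])
  obtain ⟨l, hl, m, h1, y, hy, hy', hy1, e'⟩ := t.exists_mid h e
  have h2 := h.centA' m.mem hZ' hy' hy1 (A_le _ hb) hb1 e'.symm
  have h3 : cj(l, Z) ≠ Z := fun e => by
    obtain ⟨a, ha, ha1⟩ := h.exA t.mX
    rw [e] at h2
    exact (f a ha b hb (mem_cent.1 (h2 ha) b hb).symm).elim ha1 hb1
  have t' := m.two h (t.mem h) h3 h1 le_sup_left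
  refine ⟨l, hl, t', fun a ha => ?_⟩
  have h4 : ⁅a, b⁆ = a * (b * a * b⁻¹) := by rw [commutatorElement_def, A_inv ha]; group
  have h5 : b * a * b⁻¹ ∈ A cj(b, Z) := conj_A b ha
  obtain ⟨u, hu, v, hv, e1⟩ := m.decomp h t' h1 le_sup_left (h4 ▸ mul_mem_sup ha h5)
  have h6 : b * ⁅a, b⁆ * b⁻¹ = ⁅a, b⁆ := by
    rw [h4, ← conj_mul, show b * (b * a * b⁻¹) * b⁻¹ = b * b * a * (b * b)⁻¹ by group, A_sq hb,
      t.mc h ha h5]; group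
  rw [← e1, ← conj_mul, cc (mem_cent.1 (h2 hu) b hb), mul_right_inj, mul_inv_eq_iff_eq_mul] at h6
  rcases f v hv b hb h6.symm with rfl | e2
  · rw [← e1, mul_one]; exact hu
  · exact absurd e2 hb1

theorem Cl.mk_tri (h : Cl D) (hZ : Z ∈ D) (hZ' : Z' ∈ D) (f : Far Z Z')
    {b : G} (hb : b ∈ A Z') (t : Two D Z cj(b, Z)) {g : G} (hg : g ∈ A Z) (t' : Two D Z' cj(g, Z'))
    (c : ∀ a ∈ A Z, ∀ b ∈ A Z', ⁅a, b⁆ ∈ 𝐂[A Z])
    (hgen : ∀ a ∈ A Z, Two D Z' cj(a, Z') ∨ Two D Z' cj(a * g, Z')) :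
    ∃ l ∈ zpowers b ⊔ Z, Tri D cj(l, Z) Z Z' := by
  obtain ⟨l, hl, t₁, h1⟩ := h.mk_mid hZ' f hb t
  have hb1 : b ≠ 1 := fun e' => t.ne (by rw [e', cj_one])
  have key : ∀ a ∈ A Z, Two D Z' cj(a, Z') → Two D cj(l, Z) Z' ∧ ∀ b ∈ A Z', ⁅a, b⁆ ∈ A cj(l, Z) :=
    fun a ha t => by
      obtain ⟨l', -, t₂, h2⟩ := h.mk_mid hZ f.symm ha t
      have ha1 : a ≠ 1 := fun e' => t.ne (by rw [e', cj_one])
      have h3 : ∀ b ∈ A Z', ⁅a, b⁆ ∈ A cj(l', Z') := fun b hb => by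
        rw [← commutatorElement_inv]; exact inv_mem (h2 b hb)
      rw [h.ti t₁.mX t₂.mX (A_le _ (h1 a ha)) (A_le _ (h3 b hb))
        fun e => (f a ha b hb (comm_one.1 e)).elim ha1 hb1]
      exact ⟨t₂, h3⟩
  refine ⟨l, hl, t₁, (key g hg t').1, f, fun a ha b hb => (hgen a ha).elim (fun t => (key a ha t).2 b hb)
    fun t => ?_⟩
  have h2 := (key _ (mul_mem ha hg) t).2 b hb
  rw [comm_mul_l, cc (mem_cent.1 (c g hg b hb) a ha)] at h2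
  exact (mul_mem_cancel_left ((key g hg t').2 b hb)).1 h2

theorem Two.surj2 (h : Cl D) (hf : Full D) (t : Two D X Z) {a b : G} (ha : a ∈ A X) (hb : b ∈ A Z)
    (h1 : b ≠ 1) : ∃ x ∈ X, ⁅x, b⁆ = a := by
  let φ : X →* A X := MonoidHom.mk' (fun x => ⟨⁅(x : G), b⁆, t.comm_mem h x.2 hb⟩) fun x y =>
    Subtype.ext (by
      have := t.comm_mem h y.2 hb
      change ⁅(x : G) * y, b⁆ = ⁅(x : G), b⁆ * ⁅(y : G), b⁆
      rw [comm_mul_l, cc (h.mc t.mX x.2 (A_le _ this)),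
        h.mc t.mX (A_le _ this) (A_le _ (t.comm_mem h x.2 hb))])
  have hk : φ.ker = (A X).subgroupOf X := by
    ext x
    rw [MonoidHom.mem_ker, mem_subgroupOf, Subtype.ext_iff]
    exact comm_one.trans ⟨fun e => by_contra fun e' => h1 (t.inj h x.2 e' (A_le _ hb) e),
      fun e => t.mc h e hb⟩
  have h2 := φ.ker.card_mul_index
  rw [index_ker, hk, Nat.card_congr (subgroupOfEquivOfLe (A_le X)).toEquiv, hf X t.mX] at h2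
  obtain ⟨x, e⟩ : (⟨a, ha⟩ : A X) ∈ φ.range := by
    rw [eq_top_of_card_eq _ (Nat.eq_of_mul_eq_mul_left Nat.card_pos h2)]; trivial
  exact ⟨x, x.2, congrArg Subtype.val e⟩

theorem Two.part (h : Cl D) (hf : Full D) (t : Two D X Z) {f : G} (hx : f ∈ A X ⊔ A Z) :
    f ∈ A X ∨ ∃ x ∈ X, f ∈ A cj(x, Z) := by
  obtain ⟨a, ha, b, hb, rfl⟩ := (t.mem_pl h).1 hx
  by_cases h1 : b = 1
  · exact Or.inl (by rw [h1, mul_one]; exact ha)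
  obtain ⟨x, hx', rfl⟩ := t.surj2 h hf ha hb h1
  exact Or.inr ⟨x, hx', by simpa [commutatorElement_def] using conj_A x hb⟩

theorem Two.part' (h : Cl D) (hf : Full D) (t : Two D X Z) {f : G} (hx : f ∈ A X ⊔ A Z) :
    ∃ T ∈ D, f ∈ A T :=
  (t.part h hf hx).elim (fun e => ⟨X, t.mX, e⟩) fun ⟨x, _, e⟩ => ⟨_, h.cj_mem t.mZ x, e⟩

theorem Cl.sq_eq_one (h : Cl D) (t : Two D Y Z) {g : G} (hg : g ∈ 𝐂[A Z]) (e : g * g ∈ Y) :
    g * g = 1 := by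
  obtain ⟨z, hz, hz'⟩ := h.exN t.mZ
  have h1 := h.comm_A t.mZ hz (h.norm_of_centA t.mZ hg) hg
  refine t.symm.inj h hz hz' e (comm_one.1 ?_)
  rw [comm_mul_r, cc (mem_cent.1 hg _ h1).symm, A_sq h1]

namespace Tri

theorem symm (r : Tri D Y Z Z') : Tri D Y Z' Z :=
  ⟨r.t₂, r.t₁, r.far.symm, fun a ha b hb => by
    rw [← commutatorElement_inv]; exact inv_mem (r.comm b hb a ha)⟩

theorem surj (h : Cl D) (r : Tri D Y Z Z') {a c : G} (ha : a ∈ A Z) (h1 : a ≠ 1) (hc : c ∈ A Y) :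
    ∃ b ∈ A Z', ⁅b, a⁆ = c :=
  Loc.TIL.surj_of_inj (h.cardA r.t₁.mX r.t₂.mZ).le (fun b => ⁅b, a⁆)
    (fun b hb => r.symm.comm b hb a ha)
    (fun _ hb _ hb' e => (inv_mul_eq_one.1 ((r.far a ha _ (mul_mem (inv_mem hb') hb)
      (comm_of_eq_l e).symm).resolve_left h1)).symm) hc

theorem cent_of (h : Cl D) (r : Tri D Y Z Z') {y b a : G} (hy : y ∈ Y) (hb : b ∈ A Z') (ha : a ∈ A Z)
    (h1 : a ≠ 1) (e : y * b * a = a * (y * b)) : y * b ∈ 𝐂[A Z] :=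
  mem_cent.2 fun c hc => (comm_one.1 (h.eq_one r.t₁.mX r.t₁.mZ r.t₁.ne (by
    rw [comm_mul_l]
    exact mul_mem (conj_mem_of_norm (le_normalizer hy) (A_le _ (r.symm.comm b hb c hc)))
      (A_le _ (r.t₁.comm_mem h hy hc)))
    (comm_mem_of_norm' (h.norm_of_comm r.t₁.mZ (A_le _ ha) h1 e) (A_le _ hc)))).symm

theorem sq (h : Cl D) (r : Tri D Y Z Z') {y b : G} (hy : y ∈ Y) (hb : b ∈ A Z')
    (e : y * b ∈ 𝐂[A Z]) : y * b * (y * b) = 1 := by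
  refine h.sq_eq_one r.t₁ e ?_
  rw [show y * b * (y * b) = y * (b * y * b⁻¹) * (b * b) by group, A_sq hb, mul_one]
  exact mul_mem hy (conj_mem_of_norm (r.t₂.symm.A_norm h hb) hy)

theorem ex_b (h : Cl D) (r : Tri D Y Z Z') {y : G} (hy : y ∈ Y) : ∃ b ∈ A Z', y * b ∈ 𝐂[A Z] := by
  obtain ⟨a, ha, h1⟩ := h.exA r.t₁.mZ
  obtain ⟨b, hb, e⟩ := r.surj h ha h1 (r.t₁.comm_mem h (inv_mem hy) ha)
  exact ⟨b, hb, r.cent_of h hy hb ha h1 (by simpa using comm_of_eq_l e)⟩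

theorem norm_pl (h : Cl D) (r : Tri D Y Z Z') : A Z' ≤ 𝐍[A Y ⊔ A Z] :=
  norm_of_comm_le' le_sup_left (sup_comm_le (norm_of_le le_rfl) (norm_of_cent (r.t₁.symm.centA h))
    ((comm_eq_bot_iff.2 (r.t₂.centA h)).le.trans bot_le) (commutator_le.2 r.comm))

theorem fix (h : Cl D) (r : Tri D Y Z Z') {y b f : G} (hy : y ∈ Y) (hb : b ∈ A Z')
    (hn : y * b ∉ 𝐂[A Z]) (hf : f ∈ A Y ⊔ A Z) (e : y * b * f = f * (y * b)) : f ∈ A Y := by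
  obtain ⟨u, hu, v, hv, rfl⟩ := (r.t₁.mem_pl h).1 hf
  by_cases h1 : v = 1
  · rw [h1, mul_one]; exact hu
  refine absurd (r.cent_of h hy hb hv h1 ?_) hn
  rwa [← mul_assoc, mul_assoc y, ← r.t₂.mc h hu hb, ← mul_assoc, h.mc r.t₁.mX hy (A_le _ hu),
    mul_assoc u, mul_assoc u, mul_assoc u, mul_right_inj] at e

theorem not_cent (h : Cl D) (r : Tri D Y Z Z') {b : G} (hb : b ∈ A Z') (h1 : b ≠ 1) : b ∉ 𝐂[A Z] :=
  fun e => let ⟨a, ha, h2⟩ := h.exA r.t₁.mZ; (r.far a ha b hb (mem_cent.1 e a ha)).elim h2 h1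

theorem ex_y (h : Cl D) (r : Tri D Y Z Z') {b : G} (hb : b ∈ A Z') : ∃ y ∈ Y, y * b ∈ 𝐂[A Z] := by
  by_cases h1 : b = 1
  · exact ⟨1, one_mem _, by rw [h1, mul_one]; exact one_mem _⟩
  have m := r.t₁.mem' h
  obtain ⟨z, hz, hz'⟩ := m.exists_not h
  have hn := r.norm_pl h hb
  have hn2 : b * b ∈ 𝐂[A Y ⊔ A Z] := by rw [A_sq hb]; exact one_mem _
  obtain ⟨l, hl, h2, h3⟩ := m.mid h hn hn2
    (fun e => r.not_cent h hb h1 (h.centA r.t₂.mZ r.t₁.mZ (A_le _ hb) h1 e hb)) hz hz'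
  have m' := m.cj' h (zpowers_le.2 (mul_mem hn (m.norm hz)) hl)
  obtain ⟨f, hf, hf', hf1, e⟩ := m'.exists_fix hn h2 hn2
  have h4 := h.ti m'.mem r.t₁.mX hf' (A_le _ (r.fix h (one_mem _) hb
    (by rw [one_mul]; exact r.not_cent h hb h1) hf (by rw [one_mul]; exact e))) hf1
  have hy : l * z * l⁻¹ ∈ Y := h4 ▸ conj_mem_cj hz
  generalize l * z * l⁻¹ = y at hy h3
  refine ⟨y⁻¹, inv_mem hy, by_contra fun h5 => ?_⟩
  obtain ⟨a, ha, ha1⟩ := h.exA r.t₁.mX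
  have h6 := conj_mem_of_norm (m.norm hz) (mem_sup_left ha)
  refine hz' (mem_sup_right ((h.memA m.mem).2 ⟨hz, (r.t₁.nZ z hz).1 (h.norm_of_conj r.t₁.mX
    (A_le _ ha) ha1 (A_le _ (r.fix h (inv_mem hy) hb h5 h6 ?_)))⟩))
  have h7 : b⁻¹ * y * a = a * (b⁻¹ * y) := by
    rw [mul_assoc, h.mc r.t₁.mX hy (A_le _ ha), ← mul_assoc, ← r.t₂.mc h ha (inv_mem hb), mul_assoc]
  have h8 := mem_cent.1 h3 _ h6
  rw [show y⁻¹ * b = (b⁻¹ * y)⁻¹ by group]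
  generalize b⁻¹ * y = w at h7 h8
  have h9 : w * (z * a * z⁻¹) = z * a * z⁻¹ * w := by
    calc _ = ⁅w, z⁆ * (z * (w * a) * z⁻¹) := by group
      _ = ⁅w, z⁆ * (z * a * z⁻¹) * (z * w * z⁻¹) := by rw [h7]; group
      _ = _ := by rw [← h8]; group
  exact (Commute.inv_left h9).eq

theorem full (h : Cl D) (r : Tri D Y Z Z') : Full D := by
  intro X hX
  obtain ⟨g, rfl⟩ := h.trans r.t₁.mX hX
  rw [← cj_A, card_cj, card_cj]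
  obtain ⟨a, ha, h1⟩ := h.exA r.t₁.mZ
  let φ : Y →* A Y := MonoidHom.mk' (fun x => ⟨⁅(x : G), a⁆, r.t₁.comm_mem h x.2 ha⟩) fun x y =>
    Subtype.ext (by
      have := r.t₁.comm_mem h y.2 ha
      change ⁅(x : G) * y, a⁆ = ⁅(x : G), a⁆ * ⁅(y : G), a⁆
      rw [comm_mul_l, cc (h.mc r.t₁.mX x.2 (A_le _ this)),
        h.mc r.t₁.mX (A_le _ this) (A_le _ (r.t₁.comm_mem h x.2 ha))])
  have hk : φ.ker = (A Y).subgroupOf Y := by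
    ext x
    rw [MonoidHom.mem_ker, mem_subgroupOf, Subtype.ext_iff]
    exact comm_one.trans ⟨fun e => by_contra fun e' => h1 (r.t₁.inj h x.2 e' (A_le _ ha) e),
      fun e => r.t₁.mc h e ha⟩
  have hr : φ.range = ⊤ := eq_top_iff.2 fun c _ => by
    obtain ⟨b, hb, e⟩ := r.surj h ha h1 c.2
    obtain ⟨y, hy, e'⟩ := r.ex_y h hb
    refine ⟨⟨y⁻¹, inv_mem hy⟩, Subtype.ext (e ▸ ?_)⟩
    change ⁅y⁻¹, a⁆ = ⁅b, a⁆
    rw [show ⁅b, a⁆ = y⁻¹ * (y * b * a) * b⁻¹ * a⁻¹ by group, ← mem_cent.1 e' a ha]; group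
  have h2 := φ.ker.card_mul_index
  rw [index_ker, hk, Nat.card_congr (subgroupOfEquivOfLe (A_le Y)).toEquiv, hr, card_top] at h2
  exact h2.symm

theorem cent_pl (h : Cl D) (r : Tri D Y Z Z') {y b : G} (hy : y ∈ Y) (hb : b ∈ A Z')
    (e : y * b ∈ 𝐂[A Z]) : y * b ∈ 𝐂[A Y ⊔ A Z] := by
  rw [cent_sup]
  exact ⟨mul_mem (cent_comm (A_le_cent Y) hy) (r.t₂.symm.centA h hb), e⟩

theorem move (h : Cl D) (r : Tri D Y Z Z') {y b l : G} (hy : y ∈ Y) (hb : b ∈ A Z')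
    (e : y * b ∈ 𝐂[A Z]) (hl : l ∈ Y ⊔ Z) (hl' : l ∈ 𝐍[Y]) :
    l * b * l⁻¹ ∈ 𝐂[A Z'] ∧
      ∃ c ∈ A Y, ∃ a ∈ A Z, l * b * l⁻¹ = (l * y * l⁻¹)⁻¹ * y * c * a * b := by
  have m := r.t₁.mem h
  have m' := r.t₁.mem' h
  have e' := r.cent_pl h hy hb e
  have h1 : Y ⊔ Z ≤ cmod (zpowers (y * b)) (A Y ⊔ A Z) := by
    refine sup_le (le_cmod.2 ⟨m.norm, ?_⟩) (le_cmod.2 ⟨m'.norm, ?_⟩)
    · refine (commutator_comm _ _).le.trans (commutator_le.2 fun u hu v hv => mem_sup_left ?_)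
      have := zpowers_le.2 e' hv
      rw [cent_sup] at this
      exact h.comm_A m.mem hu (h.norm_of_centA m.mem this.1) this.1
    · refine (commutator_comm _ _).le.trans (commutator_le.2 fun u hu v hv => mem_sup_right ?_)
      have := zpowers_le.2 e hv
      exact h.comm_A m'.mem hu (h.norm_of_centA m'.mem this) this
  obtain ⟨c, hc, a, ha, e1⟩ := (r.t₁.mem_pl h).1 (conj_mem_of_norm' (m.norm hy)
    (inv_mem ((mem_cmod.1 (h1 hl)).2 _ (mem_zpowers _))))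
  have e2 : l * b * l⁻¹ = (l * y * l⁻¹)⁻¹ * y * c * a * b := by
    rw [mul_assoc _ c, e1]; group
  refine ⟨?_, c, hc, a, ha, e2⟩
  have hw : (l * y * l⁻¹)⁻¹ * y * c ∈ Y :=
    mul_mem (mul_mem (inv_mem (conj_mem_of_norm hl' hy)) hy) (A_le _ hc)
  generalize (l * y * l⁻¹)⁻¹ * y * c = w at hw e2
  obtain ⟨a₃, ha₃, k1⟩ := r.symm.ex_b h hw
  obtain ⟨b₃, hb₃, k2⟩ := r.ex_b h hw
  have cZ : A Z ≤ 𝐂[A Z] := (A_le_cent Z).trans (cent_anti (A_le Z))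
  have cZ' : A Z' ≤ 𝐂[A Z'] := (A_le_cent Z').trans (cent_anti (A_le Z'))
  by_cases k3 : a₃ = a
  · rw [e2, ← k3]; exact mul_mem k1 (cZ' hb)
  by_cases k4 : b₃ = b
  · have k5 : l * b * l⁻¹ ∈ 𝐂[A Y ⊔ A Z] := by
      rw [e2, show w * a * b = w * b * (b⁻¹ * a * b) by group]
      exact mul_mem (r.cent_pl h hw hb (k4 ▸ k2))
        (m.ab (conj_mem_of_norm' (r.norm_pl h hb) (mem_sup_right ha)))
    have k6 := conj_mem_of_norm' (norm_cent (sup_le m.norm m'.norm) hl) k5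
    rw [show l⁻¹ * (l * b * l⁻¹) * l = b by group] at k6
    rw [by_contra fun k => r.not_cent h hb k (cent_anti le_sup_right k6)]
    simp
  exfalso
  have s1 := r.symm.sq h hw ha₃ k1
  have s2 := r.sq h hw hb₃ k2
  have s3 : w * a * b * (w * a * b) = 1 := by rw [← e2, conj_mul, A_sq hb]; group
  have p1 := mul_mem (inv_mem ha₃) ha
  have p2 := mul_mem (inv_mem hb₃) hb
  refine (r.far _ p1 _ p2 ?_).elim (fun e => k3 (inv_mul_eq_one.1 e)) fun e => k4 (inv_mul_eq_one.1 e)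
  obtain ⟨a, rfl⟩ : ∃ a', a = a₃ * a' := ⟨a₃⁻¹ * a, by group⟩
  obtain ⟨b, rfl⟩ : ∃ b', b = b₃ * b' := ⟨b₃⁻¹ * b, by group⟩
  rw [inv_mul_cancel_left] at p1 p2 ⊢
  rw [inv_mul_cancel_left]
  have q1 : w * b₃ * a₃ ∈ 𝐂[A Z] := mul_mem k2 (cZ ha₃)
  have q2 : w * b₃ * a₃ ∈ 𝐂[A Z'] := by
    rw [show w * b₃ * a₃ = w * a₃ * ⁅a₃⁻¹, b₃⁆ * b₃ by group]
    exact mul_mem (mul_mem k1 (r.t₂.centA h (r.comm _ (inv_mem ha₃) _ hb₃))) (cZ' hb₃)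
  have q3 : w * b₃ * a₃ * (w * b₃ * a₃) = 1 := by
    rw [mul_assoc (w * b₃), ← mul_assoc a₃, mem_cent.1 k2 _ ha₃, mul_assoc (w * b₃), A_sq ha₃,
      mul_one, s2]
  have q4 := r.comm _ (inv_mem ha) _ (inv_mem hb₃)
  have q5 : w * b₃ * a₃ * ⁅(a₃ * a)⁻¹, b₃⁻¹⁆ = ⁅(a₃ * a)⁻¹, b₃⁻¹⁆ * (w * b₃ * a₃) :=
    (mem_cent.1 (mul_mem (mul_mem (cent_comm (A_le_cent Y) hw) (r.t₂.symm.centA h hb₃))
      (r.t₁.symm.centA h ha₃)) _ q4).symm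
  rw [show w * (a₃ * a) * (b₃ * b) = w * b₃ * a₃ * (a₃⁻¹ * b₃⁻¹ * a₃ * b₃ * (b₃⁻¹ * a * b₃ * b))
    by group, show a₃⁻¹ * b₃⁻¹ * a₃ * b₃ * (b₃⁻¹ * a * b₃ * b) =
      a * ⁅(a₃ * a)⁻¹, b₃⁻¹⁆ * b by group] at s3
  have c1 : Commute (w * b₃ * a₃) a := (mem_cent.1 q1 a p1).symm
  have c2 : Commute (w * b₃ * a₃) b := (mem_cent.1 q2 b p2).symm
  have c3 : Commute ⁅(a₃ * a)⁻¹, b₃⁻¹⁆ a := r.t₁.mc h q4 p1
  have c4 : Commute ⁅(a₃ * a)⁻¹, b₃⁻¹⁆ b := r.t₂.mc h q4 p2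
  have q6 := A_sq q4
  generalize w * b₃ * a₃ = u at *
  generalize ⁅(a₃ * a)⁻¹, b₃⁻¹⁆ = k at *
  rw [← c3.eq, mul_assoc k, ← pow_two, (((show Commute u k from q5).mul_right
    (c1.mul_right c2))).mul_pow, (c3.mul_right c4).mul_pow, pow_two, pow_two, pow_two, q3, q6,
    one_mul, one_mul] at s3
  rw [eq_inv_of_mul_eq_one_left s3, mul_inv_rev, A_inv p1, A_inv p2]

end Tri

end Cfsg.Agent.TIB
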