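import Mathlib
import Cfsg.Agent.TIB.C
import Cfsg.Agent.S1783
import Cfsg.Agent.GT.Zipper

/-! Distinct members of the class do not commute. -/

set_option autoImplicit false
set_option linter.unusedSectionVars false
open Cfsg

namespace Cfsg.Agent.TIB

open Cfsg.Agent.Loc.Mss Cfsg.Agent.GT Subgroup
open scoped commutatorElement

variable {G : Type*} [Group G] [Finite G] {D : Set (Subgroup G)} {X Y Z Z' F S T B B' : Subgroup G}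

theorem Tri.exists_line (h : Cl D) (r : Tri D Y Z Z') {y₁ y₂ : G} (h1 : y₁ ∈ Y) (h1' : y₁ ∉ A Y)
    (h2 : y₂ ∈ Y) (h2' : y₂ ∉ A Y) :
    ∃ Z'', Two D Z'' Z' ∧ ∃ w ∈ Y, y₂ * w * y₁⁻¹ ∈ A Y ∧ ∃ a ∈ A Z, w * a ∈ A Z'' ⊔ A Z' := by
  have m := r.t₁.mem h
  obtain ⟨l₀, k1, k2, k3⟩ := m.exists_move h (r.t₁.mem' h) r.t₁.ne h1 (r.t₁.not_pl h h1 h1') h2
    (r.t₁.not_pl h h2 h2')
  obtain ⟨l, k1, k2, k3, k4⟩ : ∃ l ∈ Y ⊔ Z, l ∈ 𝐍[Y] ∧ y₂⁻¹ * (l * y₁ * l⁻¹) ∈ A Y ⊔ A Z ∧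
      ¬ cj(l, Z') ≤ 𝐂[Z'] := by
    by_cases k4 : cj(l₀, Z') ≤ 𝐂[Z']
    swap
    · exact ⟨l₀, k1, k2, k3, k4⟩
    refine ⟨y₁ * l₀, mul_mem (mem_sup_left h1) k1, mul_mem (le_normalizer h1) k2, ?_, fun k5 => ?_⟩
    · rwa [show y₁ * l₀ * y₁ * (y₁ * l₀)⁻¹ = y₁ * (l₀ * y₁ * l₀⁻¹) * y₁⁻¹ by group,
        cc (h.mc r.t₁.mX h1 (conj_mem_of_norm k2 h1))]
    have t := r.t₂.cj' h k2
    obtain ⟨e, he, he1⟩ := h.exA t.mZ
    obtain ⟨z, hz, hz'⟩ := h.exN r.t₂.mZ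
    rw [← cj_cj] at k5
    have k6 : ⁅y₁, e⁆ ∈ 𝐂[Z'] := mul_mem (k5 (conj_mem_cj (A_le _ he))) (inv_mem (k4 (A_le _ he)))
    exact he1 (t.inj h h1 h1' (A_le _ he) (comm_one.1
      (r.t₂.symm.inj h hz hz' (A_le _ (t.comm_mem h h1 he)) (mem_cent.1 k6 z hz))))
  have k5 : A cj(l, Z') ≤ 𝐂[A Z'] := by
    rw [← cj_A]
    refine cj_le_iff.2 fun b hb => ?_
    obtain ⟨y, hy, e⟩ := r.ex_y h hb
    exact (r.move h hy hb e k1 k2).1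
  obtain ⟨b, hb, e⟩ := r.ex_b h h1
  obtain ⟨-, c, hc, a, ha, e'⟩ := r.move h h1 hb e k1 k2
  have k6 := conj_mem_of_norm k2 h1
  have k7 : y₂⁻¹ * (l * y₁ * l⁻¹) ∈ A Y :=
    (h.memA m.mem).2 ⟨mul_mem (inv_mem h2) k6, m.el _ k3⟩
  refine ⟨_, (h.tri' (h.cj_mem r.t₂.mZ l) r.t₂.mZ k5).resolve_left k4,
    (l * y₁ * l⁻¹)⁻¹ * y₁ * c, mul_mem (mul_mem (inv_mem k6) h1) (A_le _ hc), ?_, a, ha, ?_⟩
  · rw [show y₂ * ((l * y₁ * l⁻¹)⁻¹ * y₁ * c) * y₁⁻¹ =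
      y₂ * (y₂⁻¹ * (l * y₁ * l⁻¹))⁻¹ * y₂⁻¹ * (y₁ * c * y₁⁻¹) by group]
    exact mul_mem (conj_mem_of_norm (norm_A Y (le_normalizer h2)) (inv_mem k7))
      (conj_mem_of_norm (norm_A Y (le_normalizer h1)) hc)
  · rw [← mul_inv_eq_iff_eq_mul] at e'
    rw [← e']
    exact mul_mem_sup (conj_A l hb) (inv_mem hb)

theorem Two.exists_other (h : Cl D) (hf : Full D) (t : Two D Y Z) (y : G) :
    ∃ w ∈ Y, w ∉ A Y ∧ y * w ∉ A Y := by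
  obtain ⟨a, ha, b, hb, ha1, hb1, hab⟩ := h.four t.mX
  obtain ⟨c, hc, hc1⟩ := h.exA t.mZ
  obtain ⟨u, hu, rfl⟩ := t.surj2 h hf ha hc hc1
  obtain ⟨v, hv, rfl⟩ := t.surj2 h hf hb hc hc1
  have k : ∀ w ∈ A Y, ⁅w, c⁆ = 1 := fun w hw => comm_one.2 (t.mc h hw hc)
  by_cases h1 : y * u ∈ A Y
  · refine ⟨v, hv, fun e => hb1 (k v e), fun e => hab ?_⟩
    have h2 : u * v ∈ A Y := by
      rw [show u * v = u * u * ((y * u)⁻¹ * (y * v)) by group]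
      exact mul_mem (h.sqA t.mX hu) (mul_mem (inv_mem h1) e)
    rw [← k _ h2, comm_mul_l, cc (h.mc t.mX hu (A_le _ hb)), h.mc t.mX (A_le _ hb) (A_le _ ha)]
  · exact ⟨u, hu, fun e => ha1 (k u e), h1⟩

theorem exists_odd {M : Subgroup G} {a : G} (ha : a ∈ M) (h2 : a * a = 1) (hn : a ∉ pCoreOf 2 M) :
    ∃ θ ∈ M, θ ≠ 1 ∧ Odd (orderOf θ) ∧ a * θ * a⁻¹ = θ⁻¹ := by
  obtain ⟨θ, h1, h3, h4⟩ := exists_odd_inverted_of_not_mem_pCore (t := (⟨a, ha⟩ : M))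
    (Subtype.ext h2) fun e => hn (mem_map_of_mem M.subtype e)
  exact ⟨θ, θ.2, fun e => h1 (Subtype.ext e), by rwa [orderOf_coe], congrArg Subtype.val h4⟩

theorem eq_one_of_odd {θ : G} (h : Odd (orderOf θ)) {k : ℕ} (e : θ ^ 2 ^ k = 1) : θ = 1 :=
  orderOf_eq_one_iff.1 (Nat.Coprime.eq_one_of_dvd (Nat.Coprime.pow_right k h.coprime_two_right)
    (orderOf_dvd_of_pow_eq_one e))

namespace Cl
variable (h : Cl D)
include h

theorem sq_mem_Q (hB : B ∈ D) (hX : X ∈ D) (e : X ≤ 𝐍[B]) {x : G} (hx : x ∈ X) :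
    x * x ∈ pCoreOf 2 𝐍[B] := by
  have := (S1783.result ((genFitting_eq_pCore_iff Nat.prime_two).2 (chP_iff.2 (h.chp hB)))
    (X.subgroupOf 𝐍[B]) (h.pg hX).comap_subtype
    (le_centralizer_iff_isMulCommutative.1 (by
      rw [cent_subgroupOf e]; exact comap_mono (h.comm hX)))
    fun k => or_iff_not_imp_left.2 fun e' => eq_bot_iff.2 fun y hy => by
      rw [cj_subgroupOf] at e' hy
      exact Subtype.ext (h.eq_one (h.cj_mem hX k) hX (fun e => e' (by rw [e])) hy.1 hy.2)).1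
    (subset_closure ⟨⟨x, e hx⟩, hx, rfl⟩)
  rw [← pow_two]
  exact mem_map_of_mem _ this

theorem ncl_ab (hX : X ∈ D) {Q : Subgroup G} (hQ : IsPGroup 2 Q) (e : X ≤ 𝐍[Q]) :
    ncl Q X ≤ 𝐂[ncl Q X] :=
  ncl_le_iff.2 fun g hg => cent_comm (ncl_le_iff.2 fun g' hg' =>
    h.cent_of_pg (pg_sup (h.pg hX) hQ e) (h.cj_mem hX g') (h.cj_mem hX g)
      (cj_le_of_mem le_sup_left (mem_sup_right hg')) (cj_le_of_mem le_sup_left (mem_sup_right hg)))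

theorem A_le_Q (hB : B ∈ D) (hX : X ∈ D) (e : X ≤ 𝐍[B]) : A X ≤ pCoreOf 2 𝐍[B] := by
  intro a ha
  by_contra hn
  obtain ⟨θ, h1, h2, h3, h4⟩ := exists_odd (e (A_le _ ha)) (A_sq ha) hn
  have hZ := h.cj_mem hX θ
  obtain ⟨z, hz, hz2⟩ := h.nel hZ
  have k1 := h.sq_mem_Q hB hZ (cj_le_of_mem e h1) hz
  have k2 := h.sqA hZ hz
  have hV := h.ncl_ab hX (pg_core _) (e.trans (le_norm_core (p := 2) _))
  have k3 := le_ncl (pCoreOf 2 𝐍[B]) X (A_le _ ha)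
  have k4 := mem_cent.1 (hV k3) _ (conj_mem_of_norm (le_norm_ncl _ X k1) k3)
  have k5 : a * (z * z) * a⁻¹ * (z * z) = z * z * (a * (z * z) * a⁻¹) := by
    rw [A_inv k2] at k4
    rw [A_inv ha]
    simpa only [mul_assoc] using k4.symm
  have k6 := h.centA' (h.cj_mem hZ a) hZ (conj_mem_cj (A_le _ k2)) (by simpa using hz2)
    (A_le _ k2) hz2 k5
  have k7 := mem_cent.1 (k6 (conj_A a (conj_A θ ha))) _ (conj_A θ ha)
  have k8 : a * θ = θ⁻¹ * a := by rw [← h4]; group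
  have k9 : a * θ⁻¹ = θ * a := by rw [← mul_inv_eq_iff_eq_mul, ← conj_inv, h4, inv_inv]
  refine h2 (eq_one_of_odd h3 (k := 3) ?_)
  rw [A_inv ha] at k7
  simp only [mul_assoc] at k7
  simp only [← mul_assoc a, k8, k9, A_sq ha, mul_assoc, mul_one] at k7
  rw [← mul_inv_eq_one] at k7
  rw [← k7]; group

theorem centA_nb (hB : B ∈ D) (hX : X ∈ D) (hZ : Z ∈ D) (e : X ≤ 𝐍[B]) (e' : Z ≤ 𝐍[B]) :
    A X ≤ 𝐂[A Z] := by
  obtain ⟨x, hx, hx2⟩ := h.nel hX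
  obtain ⟨a, ha, b, hb, ha1, hb1, hab⟩ := h.four hZ
  have hV := h.ncl_ab hX (pg_core _) (e.trans (le_norm_core (p := 2) _))
  have hV' := h.ncl_ab hZ (pg_core _) (e'.trans (le_norm_core (p := 2) _))
  have hc := h.mc hZ (A_le _ ha) (A_le _ hb)
  refine h.centA hX hZ (mul_mem hx hx) hx2 (four_trick hV (le_norm_ncl _ X (h.A_le_Q hB hZ e' ha))
    (le_norm_ncl _ X (h.A_le_Q hB hZ e' hb)) (A_sq ha) (A_sq hb) hc (le_ncl _ X hx) ?_ ?_)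
  · exact mem_cent.1 (hV' (comm_mem_of_norm (le_norm_ncl _ Z (h.sq_mem_Q hB hX e hx))
      (le_ncl _ Z (A_le _ ha)))) b (le_ncl _ Z (A_le _ hb))
  · rintro g (k | k | k)
    · exact h.norm_of_comm hZ (A_le _ ha) ha1 k
    · exact h.norm_of_comm hZ (A_le _ hb) hb1 k
    · exact h.norm_of_comm hZ (A_le _ (mul_mem hb ha)) (hc ▸ hab) k

theorem tri_nb (hB : B ∈ D) (hX : X ∈ D) (hZ : Z ∈ D) (e : X ≤ 𝐂[B]) (e' : Z ≤ 𝐂[B]) :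
    X ≤ 𝐂[Z] ∨ Two D X Z := h.tri' hX hZ (h.centA_nb hB hX hZ (norm_of_cent e) (norm_of_cent e'))

theorem no_tri (hB : B ∈ D) (r : Tri D Y Z Z') (e : Y ≤ 𝐂[B]) (e' : Z ≤ 𝐂[B]) : False := by
  obtain ⟨y, hy, hy'⟩ := h.exN r.t₁.mX
  obtain ⟨y', h1, h2, h3⟩ := r.t₁.exists_other h (r.full h) y⁻¹
  obtain ⟨Z'', t, w, hw, h4, a, ha, h5⟩ := r.exists_line h hy hy' h1 h2
  obtain ⟨T, hT, h6⟩ := t.part' h (r.full h) h5
  have hw' : w ∉ A Y := fun k => h3 (by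
    rw [show y⁻¹ * y' = y⁻¹ * (y' * w * y⁻¹) * y * w⁻¹ by group]
    exact mul_mem (conj_mem_of_norm' (norm_A Y (le_normalizer hy)) h4) (inv_mem k))
  obtain ⟨c, hc, hc1⟩ := h.exA r.t₁.mZ
  have h7 : w * a * c ≠ c * (w * a) := fun k => hc1 (r.t₁.inj h hw hw' (A_le _ hc) (by
    rwa [mul_assoc, h.mc r.t₁.mZ (A_le _ ha) (A_le _ hc), ← mul_assoc, ← mul_assoc,
      mul_left_inj] at k))
  obtain ⟨b, hb, hb'⟩ := h.exN hB
  have h8 := h.cent_of_norm hB hT hb hb' (h.norm_of_comm hT (A_le _ h6) (fun k => h7 (by simp [k]))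
    (mem_cent.1 (mul_mem (e hw) (e' (A_le _ ha))) b hb))
  exact h7 (mem_cent.1 (h.centA_nb hB hT r.t₁.mZ (norm_of_cent (cent_comm h8)) (norm_of_cent e') h6)
    c hc).symm

end Cl

/-- The involutions of the members commuting with `B`. -/
def E (D : Set (Subgroup G)) (B : Subgroup G) : Subgroup G := ⨆ X : {X // X ∈ D ∧ X ≤ 𝐂[B]}, A X.1

theorem A_le_E (hX : X ∈ D) (e : X ≤ 𝐂[B]) : A X ≤ E D B :=
  le_iSup (fun X : {X // X ∈ D ∧ X ≤ 𝐂[B]} => A X.1) ⟨X, hX, e⟩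

theorem E_le {K : Subgroup G} (e : ∀ X ∈ D, X ≤ 𝐂[B] → A X ≤ K) : E D B ≤ K :=
  iSup_le fun X => e X.1 X.2.1 X.2.2

theorem E_le_cent (D : Set (Subgroup G)) (B : Subgroup G) : E D B ≤ 𝐂[B] :=
  E_le fun _ _ e => (A_le _).trans e

namespace Cl
variable (h : Cl D)
include h

theorem cj_E (B : Subgroup G) (g : G) : cj(g, E D B) = E D cj(g, B) := by
  have k : ∀ (B : Subgroup G) (g : G), cj(g, E D B) ≤ E D cj(g, B) := fun B g =>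
    cj_le_iff_le_inv.2 (E_le fun X hX e => cj_le_iff_le_inv.1 (by
      rw [cj_A]; exact A_le_E (h.cj_mem hX g) (by rw [← cj_cent]; exact cj_mono g e)))
  refine (k B g).antisymm (le_cj_iff_inv_le.2 ?_)
  simpa only [cj_inv_cj] using k cj(g, B) g⁻¹

theorem norm_E (B : Subgroup G) : 𝐍[B] ≤ 𝐍[E D B] := fun g hg => by
  rw [← cj_eq_iff, h.cj_E, cj_of_norm hg]

theorem E_centA (hB : B ∈ D) (hX : X ∈ D) (e : X ≤ 𝐂[B]) : E D B ≤ 𝐂[A X] :=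
  E_le fun _ hY e' => h.centA_nb hB hY hX (norm_of_cent e') (norm_of_cent e)

theorem E_norm (hB : B ∈ D) (hX : X ∈ D) (e : X ≤ 𝐂[B]) : E D B ≤ 𝐍[X] :=
  (h.E_centA hB hX e).trans (h.norm_of_centA hX)

theorem E_ab (hB : B ∈ D) : E D B ≤ 𝐂[E D B] :=
  E_le fun _ hX e => cent_comm (h.E_centA hB hX e)

theorem pg_E (hB : B ∈ D) : IsPGroup 2 (E D B) :=
  (pg_core _).to_le (E_le fun _ hX e => h.A_le_Q hB hX (norm_of_cent e))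

theorem E_step (e : X ≤ 𝐂[B]) (e' : Z ≤ 𝐂[B]) (t : Two D X Z)
    (p : E D X ≤ 𝐂[E D B]) : E D X ≤ E D Z ⊔ E D B ∧ E D Z ≤ 𝐂[E D B] := by
  obtain ⟨x, hx, hx'⟩ := h.exN t.mX
  obtain ⟨z, hz, hz'⟩ := h.exN t.mZ
  obtain ⟨l, hl, k1, -⟩ := (t.symm.mem h).conj h (t.symm.mem' h) t.ne.symm hz (t.symm.not_pl h hz hz')
    hx (sup_comm (A X) _ ▸ t.not_pl h hx hx')
  refine ⟨fun g hg => ?_, ?_⟩
  · have k2 : g ∈ 𝐂[A Z] := cent_anti (A_le_E t.mZ e') (p hg)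
    obtain ⟨a, ha, k3⟩ := t.symm.surj h hz hz' (h.comm_A t.mZ hz (h.norm_of_centA t.mZ k2) k2)
    have k4 := mul_mem (inv_mem hg) (A_le_E t.mX (h.comm t.mX) ha)
    have k5 : l * (g⁻¹ * a) * l⁻¹ = g⁻¹ * a := by
      obtain ⟨j, rfl⟩ := hl
      exact cc ((Commute.mul_left (comm_of_eq_r k3) (mem_cent.1 (E_le_cent D X k4) x hx)).zpow_left j)
    have k6 := conj_mem_cj (g := l) k4
    rw [k5, h.cj_E, k1] at k6
    rw [show g = a * (g⁻¹ * a)⁻¹ by group, sup_comm]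
    exact mul_mem_sup (A_le_E t.mX e ha) (inv_mem k6)
  · rw [← k1, ← h.cj_E]
    exact cj_le_of_norm p (norm_cent (h.norm_E B)
      (norm_of_cent (zpowers_le.2 (mul_mem (e' hz) (e hx))) hl))

theorem E_sup (e : X ≤ 𝐂[B]) (e' : Z ≤ 𝐂[B]) (t : Two D X Z)
    (p : E D X ≤ 𝐂[E D B]) : E D X ⊔ E D B = E D Z ⊔ E D B :=
  le_antisymm (sup_le (h.E_step e e' t p).1 le_sup_right)
    (sup_le (h.E_step e' e t.symm (h.E_step e e' t p).2).1 le_sup_right)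

theorem exists_two (hB : B ∈ D) (hX : X ∈ D) (e : X ≤ 𝐂[B]) (hne : X ≠ B) :
    ∃ B', B' ≤ 𝐂[X] ∧ Two D B' B := by
  by_contra hcon
  have k1 : ∀ Y ∈ D, Y ≤ 𝐂[X] → Y ≤ 𝐂[B] := fun Y hY e' =>
    (h.tri_nb hX hY hB e' (cent_comm e)).resolve_right fun t => hcon ⟨Y, e', t⟩
  let J : Subgroup G → Subgroup G := fun X => ⨆ Y : {Y // Y ∈ D ∧ Y ≤ 𝐂[X]}, Y.1
  have j1 : ∀ {X Y}, Y ∈ D → Y ≤ 𝐂[X] → Y ≤ J X := fun {X Y} a b =>
    le_iSup (fun Y : {Y // Y ∈ D ∧ Y ≤ 𝐂[X]} => Y.1) ⟨Y, a, b⟩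
  have j2 : ∀ X g, cj(g, J X) ≤ J cj(g, X) := fun X g => cj_le_iff_le_inv.2 (iSup_le fun Y =>
    cj_le_iff_le_inv.1 (j1 (h.cj_mem Y.2.1 g) (by rw [← cj_cent]; exact cj_mono g Y.2.2)))
  have j3 : ∀ X, 𝐍[X] ≤ 𝐍[J X] := fun X g hg =>
    mem_norm_of_cj_le (by simpa only [cj_of_norm hg] using j2 X g)
  have j4 : J X ≤ J B := iSup_le fun Y => j1 Y.2.1 (k1 _ Y.2.1 Y.2.2)
  have j5 : J X = J B := by
    obtain ⟨g, rfl⟩ := h.trans hB hX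
    exact j4.antisymm ((cj_eq_of_le ((j2 B g).trans j4)).ge.trans (j2 B g))
  have j6 : ∀ X ∈ D, pCoreOf 2 (J X ⊓ 𝐂[J X]) ≠ ⊥ := fun X hX k => h.ne_bot hX (eq_bot_iff.2 (k ▸
    le_pCoreOf (le_inf (j1 hX (h.comm hX)) (cent_comm (iSup_le fun Y => Y.2.2)))
      (norm_of_cent (inf_le_right.trans (cent_anti (j1 hX (h.comm hX))))) (h.pg hX)))
  have j7 : ∀ X ∈ D, 𝐍[X] = 𝐍[pCoreOf 2 (J X ⊓ 𝐂[J X])] := fun X hX =>
    have := norm_core (p := 2) (norm_inf (j3 X) (norm_cent (j3 X)))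
    this.antisymm (h.max hX _ (pg_core _) (j6 X hX) this)
  exact hne (h.eq_of_norm_eq hX hB (by rw [j7 X hX, j7 B hB, j5]))

theorem alpha (hB : B ∈ D) (hX : X ∈ D) (e : X ≤ 𝐂[B]) (p : E D X ≤ 𝐂[E D B]) : X = B := by
  by_contra hne
  obtain ⟨B', e', t⟩ := h.exists_two hB hX e hne
  let S := E D B ⊔ ncl 𝐍[B] (E D X)
  have k1 := h.E_sup (cent_comm e) e' t.symm (cent_comm p)
  have k2 : B' ≤ 𝐍[E D B ⊔ E D X] :=
    k1 ▸ norm_sup (le_normalizer.trans (h.norm_E B')) ((norm_of_cent e').trans (h.norm_E X))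
  have k3 : E D B ⊔ E D X ≤ S := sup_le_sup_left (le_ncl _ _) _
  have k4 : ∀ m ∈ 𝐍[B], cj(m, X) ≤ 𝐂[B] := fun m hm => cj_le_of_norm e (norm_cent le_rfl hm)
  have k5 : B' ≤ 𝐍[S] := norm_of_forall_cj_le fun b hb => by
    have k6 : ∀ K ≤ E D B ⊔ E D X, cj(b, K) ≤ S := fun K hK => (cj_le_of_norm hK (k2 hb)).trans k3
    rw [cj_sup]
    refine sup_le (k6 _ le_sup_left) (cj_le_iff_le_inv.2 (ncl_le_iff.2 fun m hm =>
      cj_le_iff_le_inv.1 ?_))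
    have hX' := h.cj_mem hX m
    by_cases c1 : B' ≤ 𝐂[cj(m, X)]
    · rw [h.cj_E, cj_of_norm (h.norm_E _ (norm_of_cent c1 hb)), ← h.cj_E]
      exact (cj_le_ncl _ hm).trans le_sup_right
    rw [h.cj_E]
    refine k6 _ ?_
    rcases h.tri_nb hB hX hX' e (k4 m hm) with c2 | c2
    · rw [k1, h.E_sup e' (cent_comm c2) ((h.tri_nb hX t.mX hX' e' (cent_comm c2)).resolve_left c1)
        (h.E_step (cent_comm e) e' t.symm (cent_comm p)).2]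
      exact le_sup_left
    · rw [sup_comm, h.E_sup e (k4 m hm) c2 p]
      exact le_sup_left
  have k7 : S ≤ pCoreOf 2 𝐍[B] := by
    refine sup_le (E_le fun _ hX e => h.A_le_Q hB hX (norm_of_cent e)) (ncl_le ?_ (le_norm_core _))
    refine (le_pCoreOf (X := 𝐍[B] ⊓ 𝐂[E D B]) (le_inf (h.E_norm hX hB (cent_comm e)) p) ?_
      (h.pg_E hX)).trans (pCoreOf_le_pCoreOf inf_le_left
        (norm_inf le_normalizer (norm_cent (h.norm_E B))))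
    exact (inf_le_right.trans (cent_anti (A_le_E hX e))).trans
      ((h.norm_of_centA hX).trans (h.norm_E X))
  obtain ⟨a, ha, ha1⟩ := h.exA hB
  obtain ⟨b, hb, hb2⟩ := h.nel t.mX
  exact hb2 ((t.nX b hb).1 (h.max hB S ((pg_core _).to_le k7)
    (fun k => ha1 (mem_bot.1 (k ▸ mem_sup_left (A_le_E hB (h.comm hB) ha))))
    (norm_sup (h.norm_E B) (le_norm_ncl _ _)) (k5 hb)))

theorem good (hB : B ∈ D) (hX : X ∈ D) (hZ : Z ∈ D) (hB' : B' ∈ D) (e : X ≤ 𝐂[B]) (e₁ : Z ≤ 𝐂[B])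
    (e₂ : B' ≤ 𝐂[X]) (f : Far Z B') :
    (∀ a ∈ A Z, ∀ b ∈ A B', ⁅a, b⁆ ∈ 𝐂[A B']) ∧ ∃ g ∈ A B', Two D Z cj(g, Z) ∧
      ∀ b ∈ A B', Two D Z cj(b, Z) ∨ Two D Z cj(b * g, Z) := by
  have c1 : ∀ a ∈ A Z, ∀ b ∈ A B', ⁅a, b⁆ ∈ 𝐂[A B'] := fun a ha b hb =>
    h.E_centA hX hB' e₂ (comm_mem_of_norm' (h.norm_E X (h.E_norm hB hX e (A_le_E hZ e₁ ha)))
      (A_le_E hB' e₂ hb))
  have c2 : ∀ b ∈ A B', b ∈ 𝐍[B] := fun b hb => h.E_norm hX hB (cent_comm e) (A_le_E hB' e₂ hb)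
  have c3 : ∀ b ∈ A B', Z ≤ 𝐂[cj(b, Z)] ∨ Two D Z cj(b, Z) := fun b hb =>
    h.tri_nb hB hZ (h.cj_mem hZ b) e₁ (cj_le_of_norm e₁ (norm_cent le_rfl (c2 b hb)))
  obtain ⟨z, hz, hz2⟩ := h.nel hZ
  have hu := h.sqA hZ hz
  have c4 : ∀ b ∈ A B', Z ≤ 𝐂[cj(b, Z)] ↔ ⁅b, z * z⁆ ∈ 𝐂[Z] := fun b hb => by
    have k := conj_A b hu
    refine ⟨fun e => mul_mem (cent_comm e (A_le _ k)) (inv_mem (h.comm hZ (A_le _ hu))),
      fun e => (c3 b hb).resolve_right fun t => hz2 ?_⟩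
    have k2 : b * (z * z) * b⁻¹ ∈ 𝐂[Z] := by
      simpa only [commutatorElement_def, inv_mul_cancel_right] using
        mul_mem e (h.comm hZ (A_le _ hu))
    simpa using t.inj h hz (fun e => hz2 (A_sq e)) (A_le _ k) (mem_cent.1 k2 z hz)
  have c5 : ∀ b ∈ A B', ∀ c ∈ A B', Z ≤ 𝐂[cj(b, Z)] → Z ≤ 𝐂[cj(c, Z)] → Z ≤ 𝐂[cj(b * c, Z)] :=
    fun b hb c hc k1 k2 => by
      have k3 : ⁅c, z * z⁆ ∈ 𝐂[A B'] := by
        rw [← commutatorElement_inv]; exact inv_mem (c1 _ hu c hc)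
      rw [c4 _ (mul_mem hb hc), comm_mul_l, cc (mem_cent.1 k3 b hb)]
      exact mul_mem ((c4 c hc).1 k2) ((c4 b hb).1 k1)
  refine ⟨c1, ?_⟩
  by_cases c6 : ∀ b ∈ A B', Z ≤ 𝐂[cj(b, Z)]
  · exfalso
    obtain ⟨a, ha, b, hb, ha1, hb1, hab⟩ := h.four hB'
    have hc := h.mc hB' (A_le _ ha) (A_le _ hb)
    have hV : ncl (A B') Z ≤ 𝐂[ncl (A B') Z] :=
      ncl_le_iff.2 fun g hg => cent_comm (ncl_le_iff.2 fun g' hg' => by
        have := cj_mono g' (c6 _ (mul_mem (inv_mem hg') hg))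
        rwa [cj_cent, cj_cj, mul_inv_cancel_left] at this)
    have k := four_trick (N := 𝐍[B']) hV (le_norm_ncl _ Z ha) (le_norm_ncl _ Z hb) (A_sq ha) (A_sq hb)
      hc (le_ncl _ Z hz) (mem_cent.1 (by
        rw [← commutatorElement_inv]; exact inv_mem (c1 _ hu a ha)) b hb) (by
        rintro g (k | k | k)
        · exact h.norm_of_comm hB' (A_le _ ha) ha1 k
        · exact h.norm_of_comm hB' (A_le _ hb) hb1 k
        · exact h.norm_of_comm hB' (A_le _ (mul_mem hb ha)) (hc ▸ hab) k)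
    exact (f _ hu a ha (mem_cent.1 (h.centA hZ hB' (A_le _ hu) hz2 k hu) a ha).symm).elim hz2 ha1
  push Not at c6
  obtain ⟨g, hg, c6⟩ := c6
  refine ⟨g, hg, (c3 g hg).resolve_left c6, fun b hb => (c3 b hb).symm.imp_right fun k =>
    (c3 _ (mul_mem hb hg)).resolve_left fun k' => c6 ?_⟩
  have := c5 b hb _ (mul_mem hb hg) k k'
  rwa [← mul_assoc, A_sq hb, one_mul] at this

/-- Distinct members do not commute. -/
theorem eq_of_cent (hB : B ∈ D) (hX : X ∈ D) (e : X ≤ 𝐂[B]) : X = B := by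
  refine h.alpha hB hX e (E_le fun B' hB' e₂ => cent_comm (E_le fun Z hZ e₁ => by_contra fun k => ?_))
  have f := h.far hZ hB' k
  obtain ⟨-, b, hb, t, -⟩ := h.good hB hX hZ hB' e e₁ e₂ f
  obtain ⟨c, g, hg, t', hgen⟩ := h.good hX hB hB' hZ (cent_comm e) e₂ e₁ f.symm
  obtain ⟨l, hl, r⟩ := h.mk_tri hZ hB' f hb t hg t' (fun a ha b hb => by
    rw [← commutatorElement_inv]; exact inv_mem (c b hb a ha)) hgen
  exact h.no_tri hB r (cj_le_of_norm e₁ (norm_cent (sup_le (zpowers_le.2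
    (h.E_norm hX hB (cent_comm e) (A_le_E hB' e₂ hb))) (norm_of_cent e₁)) hl)) e₁

end Cl

end Cfsg.Agent.TIB
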