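import Mathlib
import Cfsg.Agent.TIB.D
import Cfsg.Agent.Loc.MssQuad

/-! Existence of a triangle. -/

set_option autoImplicit false
set_option linter.unusedSectionVars false
open Cfsg

namespace Cfsg.Agent.TIB

open Cfsg.Agent.Loc.Mss Cfsg.Agent.GT Subgroup
open scoped commutatorElement

variable {G : Type*} [Group G] [Finite G] {D : Set (Subgroup G)} {X Y Z Z' F S T B B' : Subgroup G}

theorem Cl.two (h : Cl D) (hX : X ∈ D) (hZ : Z ∈ D) (hne : X ≠ Z) (e : A X ≤ 𝐂[A Z]) : Two D X Z :=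
  (h.tri' hX hZ e).resolve_left fun k => hne (h.eq_of_cent hZ hX k)

theorem Cl.two' (h : Cl D) (hX : X ∈ D) (hZ : Z ∈ D) (hne : X ≠ Z) {x : G} (hx : x ∈ X) (h1 : x ≠ 1)
    (hn : x ∈ 𝐍[Z]) : Two D X Z := h.two hX hZ hne (h.centA hX hZ hx h1 hn)

theorem Cl.eq_of_norm (h : Cl D) (hX : X ∈ D) (hZ : Z ∈ D) {x : G} (hx : x ∈ X) (h1 : x ∉ A X)
    (hn : x ∈ 𝐍[Z]) : X = Z := h.eq_of_cent hZ hX (h.cent_of_norm hX hZ hx h1 hn)

theorem Two.pl_cent (h : Cl D) (t : Two D B Z) {f : G} (hf : f ∈ A B ⊔ A Z) (e : f ∈ 𝐂[B]) :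
    f ∈ A B := by
  obtain ⟨b, hb, hb'⟩ := (t.mem h).exists_not h
  exact (h.memA t.mX).2 ⟨(t.mem h).fix b hb hb' f hf (mem_cent.1 e b hb), (t.mem h).el f hf⟩

theorem Two.comm_cent (h : Cl D) (t : Two D B Z) {n : G} (hn : n ∈ 𝐂[B])
    (e : A cj(n, Z) ≤ 𝐂[A Z]) (e₂ : n * n ∈ 𝐂[A Z]) {a : G} (ha : a ∈ A Z) : ⁅n, a⁆ ∈ A B := by
  have k : ∀ a ∈ A Z, ⁅n, a⁆ ∈ 𝐂[B] := fun a ha =>
    comm_mem_of_norm (norm_cent (t.symm.A_norm h) ha) hn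
  have k' : ∀ a ∈ A Z, ⁅n, a⁆ ∈ A Z ⊔ A cj(n, Z) := fun a ha =>
    mul_mem (mem_sup_right (conj_A n ha)) (mem_sup_left (inv_mem ha))
  by_cases h1 : Z = cj(n, Z)
  · refine t.pl_cent h (mem_sup_right ?_) (k a ha)
    simpa only [← h1, sup_idem] using k' a ha
  have t' := h.two t.mZ (h.cj_mem t.mZ n) h1 (cent_comm e)
  obtain ⟨l, -, m, -, f, hf, hf', hf1, e'⟩ := t'.exists_mid h e₂
  obtain ⟨u, hu, v, hv, rfl⟩ := (t'.mem_pl h).1 hf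
  rw [← cj_A] at hv
  obtain ⟨v, hv, rfl⟩ := hv
  change n * (u * (n * v * n⁻¹)) = u * (n * v * n⁻¹) * n at e'
  have h2 : v⁻¹ * u = n * (u * v⁻¹) * n⁻¹ := by
    have h3 := mem_cent.1 e₂ v hv
    have h4 := t'.mc h hv (conj_A n hu)
    have h5 := t'.mc h hu (conj_A n hv)
    calc _ = v⁻¹ * (u * (n * v * n⁻¹) * n) * (n⁻¹ * (n * v * n⁻¹)⁻¹) := by group
      _ = v⁻¹ * (n * u * n⁻¹ * (n * n * v) * (n * n)⁻¹) * (n * v * n⁻¹)⁻¹ := by rw [← e']; group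
      _ = v⁻¹ * (n * u * n⁻¹ * v) * (n * v * n⁻¹)⁻¹ := by rw [← h3]; group
      _ = _ := by rw [← h4]; group
  have h3 := h.eq_one t'.mX t'.mZ t'.ne (A_le _ (mul_mem (inv_mem hv) hu))
    (h2 ▸ conj_mem_cj (A_le _ (mul_mem hu (inv_mem hv))))
  rw [inv_mul_eq_one] at h3
  subst h3
  obtain ⟨b, hb, hb'⟩ := h.exN t.mX
  have h4 : v * (n * v * n⁻¹) = ⁅n, v⁆⁻¹ := by
    rw [commutatorElement_inv, commutatorElement_def, A_inv hv]; group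
  have h5 := h.eq_of_norm t.mX m.mem hb hb' (h.norm_of_comm m.mem hf' hf1
    (mem_cent.1 (show v * (n * v * n⁻¹) ∈ 𝐂[B] from h4 ▸ inv_mem (k v hv)) b hb))
  rw [← h5] at m
  obtain ⟨b, hb, hb'⟩ := m.exists_not h
  exact (h.memA t.mX).2 ⟨m.fix b hb hb' _ (k' a ha) (mem_cent.1 (k a ha) b hb), m.el _ (k' a ha)⟩

theorem Two.le_Q (h : Cl D) (t : Two D B Z)
    (e : ∀ θ ∈ 𝐍[B], ∃ U : Subgroup G, A B ≤ U ∧
      ⁅pCoreOf 2 𝐍[B] ⊓ 𝐂[B], A Z ⊔ A cj(θ, Z)⁆ ≤ U ∧ ⁅U, A Z ⊔ A cj(θ, Z)⁆ ≤ A B) :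
    A Z ≤ pCoreOf 2 𝐍[B] := by
  intro a ha
  by_contra hn
  obtain ⟨θ, h1, h2, h3, h4⟩ := exists_odd (t.symm.A_norm h ha) (A_sq ha) hn
  obtain ⟨U, u1, u2, u3⟩ := e θ h1
  have t' := t.cj' h h1
  have k1 : A Z ⊔ A cj(θ, Z) ≤ 𝐍[B] := sup_le (t.symm.A_norm h) (t'.symm.A_norm h)
  have k2 : A Z ⊔ A cj(θ, Z) ≤ 𝐂[A B] := sup_le (t.symm.centA h) (t'.symm.centA h)
  have k3 : ⁅B, A Z ⊔ A cj(θ, Z)⁆ ≤ A B :=
    commutator_le.2 fun b hb g hg => h.comm_A t.mX hb (k1 hg) (k2 hg)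
  have r := res_le (p := 2) (A Z ⊔ A cj(θ, Z))
  have k4 := res_le_cent_of_two (h.pg t.mX) (r.trans k1) ((commutator_mono le_rfl r).trans k3)
    (r.trans k2)
  have k5 : A Z ⊔ A cj(θ, Z) ≤ 𝐍[pCoreOf 2 𝐍[B]] := k1.trans (le_norm_core _)
  have k6 := (h.chp t.mX).pg_of_chain k1 (B := pCoreOf 2 𝐍[B] ⊓ 𝐂[B]) (A := A B)
    (le_inf (comm_le_left (r.trans k5)) ((commutator_mono le_rfl k4).trans
      (comm_le_right (norm_cent (pCoreOf_le _)))))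
    (comm_res_le_of_le ((pg_core _).to_le inf_le_left) (r.trans (norm_inf k5 (norm_cent k1)))
      ((commutator_mono le_rfl r).trans u2) ((commutator_mono le_rfl r).trans u3)) (r.trans k2)
  obtain ⟨k, hk⟩ := pg_iff.1 k6 _ (mul_mem (mem_sup_right (conj_A θ ha)) (mem_sup_left (inv_mem ha)))
  refine h2 (eq_one_of_odd h3 (k := k + 1) ?_)
  rw [pow_succ', pow_mul, ← hk, show θ * a * θ⁻¹ * a⁻¹ = θ * (a * θ * a⁻¹)⁻¹ by group, h4, inv_inv,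
    pow_two]

theorem Cl.exists_tri (h : Cl D) (t : Two D B Z) : ∃ Y Z Z', Tri D Y Z Z' := by
  by_contra hcon
  have key : ∀ S : Subgroup G, IsPGroup 2 S → ∀ X ∈ D, ∀ Y ∈ D, A X ≤ S → A Y ≤ S →
      A X ≤ 𝐂[A Y] := fun S hS X hX Y hY h1 h2 => by
    by_contra hn
    obtain ⟨_, ⟨X, hX, rfl⟩, _, ⟨Y, hY, rfl⟩, -, -, hn, e⟩ := min_pair (𝓐 := A '' D)
      (by rintro _ ⟨X, hX, rfl⟩ g; exact ⟨_, h.cj_mem hX g, (cj_A X g).symm⟩)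
      (by rintro _ ⟨X, -, rfl⟩; exact (A_le_cent X).trans (cent_anti (A_le X)))
      S hS _ ⟨X, hX, rfl⟩ _ ⟨Y, hY, rfl⟩ h1 h2 hn
    have k : ∀ {X Y}, X ∈ D → Y ∈ D → ¬ A X ≤ 𝐂[A Y] → (∀ x ∈ A X, ∀ y ∈ A Y, ⁅y, x⁆ ∈ 𝐂[A X]) →
        ∀ b ∈ A Y, b ≠ 1 → Two D X cj(b, X) := fun {X Y} hX hY hn e b hb hb1 => by
      refine h.two hX (h.cj_mem hX b) (fun k => hn (cent_comm
        (h.centA hY hX (A_le _ hb) hb1 (cj_eq_iff.1 k.symm)))) (cent_comm ?_)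
      rw [← cj_A]
      refine cj_le_iff.2 fun a ha => ?_
      simpa only [commutatorElement_def, inv_mul_cancel_right] using
        mul_mem (e a ha b hb) (cent_anti (A_le X) (A_le_cent X ha))
    obtain ⟨b, hb, hb1⟩ := h.exA hY
    obtain ⟨g, hg, hg1⟩ := h.exA hX
    have k2 := k hY hX (fun e => hn (cent_comm e)) fun y hy x hx => (e x hx y hy).2
    obtain ⟨l, -, r⟩ := h.mk_tri hX hY (h.far hX hY hn) hb (k hX hY hn (fun x hx y hy => by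
      rw [← commutatorElement_inv]; exact inv_mem (e x hx y hy).1) b hb hb1) hg (k2 g hg hg1)
      (fun a ha b hb => (e a ha b hb).1) fun a ha => by
        by_cases h1 : a = 1
        · exact Or.inr (by rw [h1, one_mul]; exact k2 g hg hg1)
        · exact Or.inl (k2 a ha h1)
    exact hcon ⟨_, _, _, r⟩
  let Q := pCoreOf 2 𝐍[B]
  have hQ : IsPGroup 2 Q := pg_core _
  have ab : ∀ {Z}, Two D B Z → ncl Q (A Z) ≤ A (ncl Q (A Z)) := fun {Z} t =>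
    ncl_le_iff.2 fun g hg a ha => ⟨cj_le_ncl _ hg ha, cent_comm (ncl_le_iff.2 fun g' hg' => by
      rw [cj_A, cj_A]
      refine key _ (pg_sup (pg_A Z) hQ ((t.symm.A_norm h).trans (le_norm_core _))) _
        (h.cj_mem t.mZ g') _ (h.cj_mem t.mZ g) ?_ ?_ <;> rw [← cj_A]
      · exact cj_le_of_mem le_sup_left (mem_sup_right hg')
      · exact cj_le_of_mem le_sup_left (mem_sup_right hg)) ha, A_sq (cj_A Z g ▸ ha)⟩
  have c1 : ∀ {Z Z'}, Two D B Z → Two D B Z' → ⁅ncl Q (A Z') ⊓ (Q ⊓ 𝐂[B]), A Z⁆ ≤ A B :=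
    fun {Z Z'} t t' => commutator_le.2 fun n hn a ha => t.comm_cent h hn.2.2 (by
      rw [← cj_A]
      exact (cj_le_ncl _ hn.2.1).trans ((ab t).trans ((A_le_cent _).trans (cent_anti (le_ncl _ _)))))
      (by rw [A_sq (ab t' hn.1)]; exact one_mem _) ha
  have c2 : ∀ {Z}, Two D B Z → ⁅Q ⊓ 𝐂[B], A Z⁆ ≤ ncl Q (A Z) ⊓ (Q ⊓ 𝐂[B]) := fun {Z} t =>
    le_inf ((commutator_mono le_rfl (le_ncl Q _)).trans
      (comm_le_right (inf_le_left.trans (le_norm_ncl _ _))))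
      (comm_le_left (norm_inf ((t.symm.A_norm h).trans (le_norm_core _)) (norm_cent (t.symm.A_norm h))))
  have c3 : A Z ≤ Q := t.le_Q h fun θ hθ => by
    have t' := t.cj' h hθ
    have n1 : ∀ {Z}, Two D B Z → A Z ≤ 𝐍[A B] := fun t => norm_of_cent (t.symm.centA h)
    have n2 : ∀ {W}, Two D B W → ⁅A B ⊔ (ncl Q (A Z) ⊓ (Q ⊓ 𝐂[B]) ⊔
        ncl Q (A cj(θ, Z)) ⊓ (Q ⊓ 𝐂[B])), A W⁆ ≤ A B := fun {W} s => by
      have n3 : ∀ V : Subgroup G, V ⊓ (Q ⊓ 𝐂[B]) ≤ 𝐍[A B] := fun V =>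
        norm_of_cent (inf_le_right.trans (inf_le_right.trans (cent_anti (A_le B))))
      exact sup_comm_le le_normalizer (sup_le (n3 _) (n3 _)) (comm_le_left (n1 s))
        (sup_comm_le (n3 _) (n3 _) (c1 s t) (c1 s t'))
    exact ⟨_, le_sup_left, comm_sup_le (norm_of_comm_le' le_sup_left (n2 t))
      (norm_of_comm_le' le_sup_left (n2 t')) ((c2 t).trans (le_sup_left.trans le_sup_right))
      ((c2 t').trans (le_sup_right.trans le_sup_right)), comm_sup_le (n1 t) (n1 t') (n2 t) (n2 t')⟩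
  let P := ncl 𝐍[B] (A Z)
  have p1 : P ≤ Q := ncl_le c3 (le_norm_core _)
  have p2 : P ≤ 𝐂[A Z] := ncl_le_iff.2 fun g hg => by
    rw [cj_A]
    exact key Q hQ _ (h.cj_mem t.mZ g) _ t.mZ (cj_A Z g ▸ (cj_le_ncl _ hg).trans p1) c3
  obtain ⟨a, ha, ha1⟩ := h.exA t.mZ
  obtain ⟨z, hz, hz2⟩ := h.nel t.mZ
  refine hz2 ((t.nZ z hz).1 (h.max t.mX P (hQ.to_le p1)
    (fun k => ha1 (mem_bot.1 (k ▸ le_ncl _ _ ha))) (le_norm_ncl _ _)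
    (norm_of_comm_le' (le_ncl _ _) (commutator_le.2 fun g hg w hw => ?_) hz)))
  rw [← commutatorElement_inv]
  exact inv_mem (h.comm_A t.mZ hw (h.norm_of_centA t.mZ (p2 hg)) (p2 hg))

end Cfsg.Agent.TIB
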