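import Mathlib
import Cfsg.Agent.TIB.E

/-! The group generated by the two planes of a triangle. -/

set_option autoImplicit false
set_option linter.unusedSectionVars false
open Cfsg

namespace Cfsg.Agent.TIB

open Cfsg.Agent.Loc.Mss Cfsg.Agent.GT Subgroup
open scoped commutatorElement

variable {G : Type*} [Group G] [Finite G] {D : Set (Subgroup G)} {X Y Z Z' T B : Subgroup G}

theorem inv_of_sq {w a : G} (e : w * a * (w * a) = 1) (ha : a * a = 1) : a * w * a⁻¹ = w⁻¹ := by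
  rw [inv_eq_of_mul_eq_one_left ha, eq_inv_iff_mul_eq_one, ← mul_left_inj w⁻¹, ← mul_right_inj w,
    one_mul, mul_inv_cancel, ← e]
  group

theorem Cl.mem_of_comm (h : Cl D) (hf : Full D) (hB : B ∈ D) (t : Two D X Z) {y u : G} (hy : y ∈ B)
    (hy' : y ∉ A B) (hu : u ∈ A X ⊔ A Z) (e : y * u = u * y) : u ∈ A B := by
  by_cases h1 : u = 1
  · rw [h1]; exact one_mem _
  obtain ⟨T, hT, h2⟩ := t.part' h hf hu
  rwa [h.eq_of_norm hB hT hy hy' (h.norm_of_comm hT (A_le _ h2) h1 e)]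

theorem Cl.comm_cent (h : Cl D) (hB : B ∈ D) {g k : G} (hg : g ∈ 𝐂[A B]) (hk : k ∈ 𝐂[A B]) :
    ⁅g, k⁆ ∈ 𝐂[B] := by
  have h1 : ⁅B, 𝐂[A B]⁆ ≤ 𝐂[𝐂[A B]] := (commutator_le.2 fun x hx g hg =>
    h.comm_A hB hx (h.norm_of_centA hB hg) hg).trans (cent_comm le_rfl)
  exact comm_eq_bot_iff.1 (commutator_commutator_eq_bot_of_rotate
    (comm_eq_bot_iff.2 (commutator_comm B _ ▸ h1)) (comm_eq_bot_iff.2 h1))
    (commutator_mem_commutator hg hk)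

theorem Two.le_pl (h : Cl D) (hf : Full D) (t : Two D B Z) (t' : Two D B X) (e : A X ≤ 𝐂[A Z]) :
    A X ≤ A B ⊔ A Z := fun a ha => by
  by_cases h1 : X = Z
  · exact mem_sup_right (h1 ▸ ha)
  obtain ⟨y, hy, hy'⟩ := h.exN t.mX
  obtain ⟨b, hb, e'⟩ := t.surj h hy hy' (t'.comm_mem h hy ha)
  have h2 := h.mem_of_comm hf t.mX (h.two t'.mZ t.mZ h1 e) hy hy' (mul_mem_sup (inv_mem ha) hb)
    (comm_of_eq_r e')
  rw [show a = b * (a⁻¹ * b)⁻¹ by group]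
  exact mul_mem (mem_sup_right hb) (mem_sup_left (inv_mem h2))

theorem Two.ex_cent (h : Cl D) (hf : Full D) (t : Two D B Z) {g : G}
    (e : ∀ a ∈ A Z, ⁅g, a⁆ ∈ A B) : ∃ y ∈ B, y * g ∈ 𝐂[A Z] := by
  obtain ⟨a, ha, h1⟩ := h.exA t.mZ
  obtain ⟨x, hx, e'⟩ := t.surj2 h hf (e a ha) ha h1
  refine ⟨x⁻¹, inv_mem hx, mem_cent.2 fun c hc => (comm_one.1 (h.eq_one t.mX t.mZ t.ne ?_
    (comm_mem_of_norm' (h.norm_of_comm t.mZ (A_le _ ha) h1 (comm_of_eq_l e'.symm))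
      (A_le _ hc)))).symm⟩
  rw [comm_mul_l]
  exact mul_mem (conj_mem_of_norm (le_normalizer (inv_mem hx)) (A_le _ (e c hc)))
    (A_le _ (t.comm_mem h (inv_mem hx) hc))

theorem Two.cent_pl (h : Cl D) (t : Two D B Z) : A B ⊔ A Z ≤ 𝐂[A Z] :=
  (t.mem h).ab.trans (cent_anti le_sup_right)

/-- The product of the two planes. -/
abbrev Pl (B Z Z' : Subgroup G) : Subgroup G := A B ⊔ A Z ⊔ A Z'

theorem Pl_comm (B Z Z' : Subgroup G) : Pl B Z Z' = Pl B Z' Z := sup_right_comm _ _ _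

namespace Tri
variable (h : Cl D) (r : Tri D B Z Z')
include h r

theorem mem_P {p : G} : p ∈ Pl B Z Z' ↔ ∃ c ∈ A B, ∃ a ∈ A Z, ∃ b ∈ A Z', c * a * b = p := by
  rw [mem_sup_norm (r.norm_pl h)]
  constructor
  · rintro ⟨f, hf, b, hb, rfl⟩
    obtain ⟨c, hc, a, ha, rfl⟩ := (r.t₁.mem_pl h).1 hf
    exact ⟨c, hc, a, ha, b, hb, rfl⟩
  · rintro ⟨c, hc, a, ha, b, hb, rfl⟩
    exact ⟨_, mul_mem_sup hc ha, b, hb, rfl⟩

theorem P_cent : Pl B Z Z' ≤ 𝐂[A B] :=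
  sup_le (r.t₁.symm.cent_pl h |>.trans' (sup_comm _ _).le) (r.t₂.symm.centA h)

theorem P_norm : Pl B Z Z' ≤ 𝐍[B] := (r.P_cent h).trans (h.norm_of_centA r.t₁.mX)

theorem pg_P : IsPGroup 2 (Pl B Z Z') :=
  pg_sup' (pg_sup' (pg_A B) (pg_A Z) (norm_of_cent (r.t₁.symm.centA h))) (pg_A Z') (r.norm_pl h)

theorem mem_pl {p : G} (hp : p ∈ Pl B Z Z') (e : p ∈ 𝐂[A Z]) : p ∈ A B ⊔ A Z := by
  obtain ⟨c, hc, a, ha, b, hb, rfl⟩ := (r.mem_P h).1 hp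
  have h1 := mul_mem_sup hc ha
  rw [by_contra fun k => r.not_cent h hb k ((mul_mem_cancel_left (r.t₁.cent_pl h h1)).1 e), mul_one]
  exact h1

theorem inf_pl {p : G} (hp : p ∈ A B ⊔ A Z) (e : p ∈ 𝐂[A Z']) : p ∈ A B := by
  obtain ⟨c, hc, a, ha, rfl⟩ := (r.t₁.mem_pl h).1 hp
  rw [by_contra fun k => r.symm.not_cent h ha k ((mul_mem_cancel_left (r.t₂.centA h hc)).1 e),
    mul_one]
  exact hc

theorem invol {p : G} (hp : p ∈ Pl B Z Z') (e : p * p = 1) : p ∈ A B ⊔ A Z ∨ p ∈ A B ⊔ A Z' := by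
  obtain ⟨c, hc, a, ha, b, hb, rfl⟩ := (r.mem_P h).1 hp
  have h1 : a * b * c = c * (a * b) :=
    (mem_cent.1 (r.P_cent h (mul_mem_sup (mem_sup_right ha) hb)) c hc).symm
  rw [mul_assoc c, mul_assoc c, ← mul_assoc _ c, h1, ← mul_assoc c, ← mul_assoc c, A_sq hc,
    one_mul] at e
  rcases r.far a ha b hb (by rw [eq_inv_of_mul_eq_one_left e, mul_inv_rev, A_inv ha, A_inv hb])
    with rfl | rfl
  · exact Or.inr (by rw [mul_one]; exact mul_mem_sup hc hb)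
  · exact Or.inl (by rw [mul_one]; exact mul_mem_sup hc ha)

theorem sq_P {p : G} (hp : p ∈ Pl B Z Z') : p * p ∈ A B := by
  obtain ⟨c, hc, a, ha, b, hb, rfl⟩ := (r.mem_P h).1 hp
  rw [show c * a * b * (c * a * b) = c * (a * b * c * (a * b)⁻¹) * (a * b * a * b) by group]
  refine mul_mem (mul_mem hc (conj_mem_of_norm (norm_of_cent (r.P_cent h)
    (mul_mem_sup (mem_sup_right ha) hb)) hc)) ?_
  simpa only [commutatorElement_def, A_inv ha, A_inv hb] using r.comm a ha b hb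

theorem comm_P : ⁅Pl B Z Z', Pl B Z Z'⁆ ≤ A B := by
  have n := norm_of_cent (r.P_cent h)
  have n1 : A B ⊔ A Z ≤ 𝐍[A B] := le_sup_left.trans n
  have n2 : A Z' ≤ 𝐍[A B] := le_sup_right.trans n
  have c1 : ⁅A B ⊔ A Z, A Z'⁆ ≤ A B := sup_comm_le le_normalizer (le_sup_right.trans n1)
    (comm_le_left n2) (commutator_le.2 r.comm)
  exact sup_comm_le n1 n2
    (comm_sup_le n1 n2 ((comm_eq_bot_iff.2 (r.t₁.mem h).ab).le.trans bot_le) c1)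
    (comm_sup_le n1 n2 (commutator_comm _ (A Z') ▸ c1) ((comm_eq_bot_iff.2
      ((A_le_cent Z').trans (cent_anti (A_le Z')))).le.trans bot_le))

theorem B_le : B ≤ Pl B Z Z' := fun y hy => by
  have hA : A B ≤ Pl B Z Z' := le_sup_left.trans le_sup_left
  by_cases hy' : y ∈ A B
  · exact hA hy'
  obtain ⟨w₀, h1, h2, h3⟩ := r.t₁.exists_other h (r.full h) y
  obtain ⟨Z'', t, w, hw, h4, a, ha, h5⟩ := r.exists_line h (mul_mem hy h1) h3 h1 h2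
  rw [h.mc r.t₁.mX hy h1, mul_inv_rev, ← mul_assoc, mul_assoc w₀,
    cc (h.mc r.t₁.mX h1 (mul_mem hw (inv_mem hy)))] at h4
  suffices w ∈ Pl B Z Z' by
    rw [show y = (w * y⁻¹)⁻¹ * w by group]
    exact mul_mem (inv_mem (hA h4)) this
  by_cases hw' : w ∈ A B
  · exact hA hw'
  obtain ⟨b, hb, e⟩ := r.ex_b h hw
  have e1 := inv_of_sq ((t.mem h).el _ h5) (A_sq ha)
  have e2 := inv_of_sq (r.sq h hw hb e) (A_sq hb)
  have h6 := h.mem_of_comm (r.full h) r.t₁.mX t hw hw' (mul_mem h5 (mem_sup_right hb)) (by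
    rw [mul_assoc w a, mul_assoc w (a * b), mul_right_inj, ← mul_inv_eq_iff_eq_mul.1 (show
      a * b * w * (a * b)⁻¹ = w by
        rw [show a * b * w * (a * b)⁻¹ = a * (b * w * b⁻¹) * a⁻¹ by group, e2, ← conj_inv, e1,
          inv_inv])])
  rw [show w = w * a * b * b⁻¹ * a⁻¹ by group]
  exact mul_mem (mul_mem (hA h6) (mem_sup_right (inv_mem hb)))
    (mem_sup_left (mem_sup_right (inv_mem ha)))

theorem el_le {V : Subgroup G} (hV : V ≤ Pl B Z Z') (e : ∀ v ∈ V, v * v = 1) :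
    V ≤ A B ⊔ A Z ∨ V ≤ A B ⊔ A Z' := by
  by_contra! hcon
  obtain ⟨a, ha, ha'⟩ := SetLike.not_le_iff_exists.1 hcon.1
  obtain ⟨b, hb, hb'⟩ := SetLike.not_le_iff_exists.1 hcon.2
  have h1 := (r.invol h (hV ha) (e a ha)).resolve_left ha'
  have h3 := (r.invol h (hV hb) (e b hb)).resolve_right hb'
  rcases r.invol h (hV (mul_mem ha hb)) (e _ (mul_mem ha hb)) with h4 | h4
  · exact ha' ((mul_mem_cancel_right h3).1 h4)
  · exact hb' ((mul_mem_cancel_left h1).1 h4)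

theorem not_le : ¬ A B ⊔ A Z ≤ A B ⊔ A Z' := fun e =>
  let ⟨_, ha, h1⟩ := h.exA r.t₁.mZ
  r.symm.not_cent h ha h1 (r.t₂.cent_pl h (e (mem_sup_right ha)))

theorem cj_le {g : G} (hg : g ∈ 𝐍[Pl B Z Z']) :
    cj(g, A B ⊔ A Z) ≤ A B ⊔ A Z ∨ cj(g, A B ⊔ A Z) ≤ A B ⊔ A Z' :=
  r.el_le h (cj_le_of_norm le_sup_left hg) ((r.t₁.mem h).cj h g).el

theorem perm {g : G} (hg : g ∈ 𝐍[Pl B Z Z']) : (g ∈ 𝐍[A B ⊔ A Z] ∧ g ∈ 𝐍[A B ⊔ A Z']) ∨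
    (cj(g, A B ⊔ A Z) ≤ A B ⊔ A Z' ∧ cj(g, A B ⊔ A Z') ≤ A B ⊔ A Z) := by
  have k : ∀ {U V : Subgroup G}, cj(g, U) ≤ V → cj(g, V) ≤ V → U ≤ V := fun {U V} e e' => by
    rwa [← cj_of_norm (mem_norm_of_cj_le e'), cj_le_cj] at e
  rcases r.cj_le h hg with h1 | h1 <;> rcases r.symm.cj_le h (Pl_comm B Z Z' ▸ hg) with h2 | h2
  · exact Or.inl ⟨mem_norm_of_cj_le h1, mem_norm_of_cj_le h2⟩
  · exact absurd (k h2 h1) (r.symm.not_le h)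
  · exact absurd (k h1 h2) (r.not_le h)
  · exact Or.inr ⟨h1, h2⟩

theorem le_or_le (t : Two D B X) (e : A X ≤ 𝐍[Pl B Z Z']) : A X ≤ A B ⊔ A Z ∨ A X ≤ A B ⊔ A Z' := by
  obtain ⟨a, ha, ha1, n1, n2⟩ : ∃ a ∈ A X, a ≠ 1 ∧ a ∈ 𝐍[A B ⊔ A Z] ∧ a ∈ 𝐍[A B ⊔ A Z'] := by
    obtain ⟨a, ha, b, hb, ha1, hb1, hab⟩ := h.four t.mZ
    rcases r.perm h (e ha) with h1 | h1
    · exact ⟨a, ha, ha1, h1⟩
    rcases r.perm h (e hb) with h2 | h2
    · exact ⟨b, hb, hb1, h2⟩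
    exact ⟨_, mul_mem ha hb, hab, mem_norm_of_cj_le (cj_cj _ b a ▸ (cj_mono a h2.1).trans h1.2),
      mem_norm_of_cj_le (cj_cj _ b a ▸ (cj_mono a h2.2).trans h1.1)⟩
  have k : ∀ {W}, Two D B W → ∀ {g}, g ∈ 𝐂[A B] → g ∈ 𝐍[A B ⊔ A W] → ∃ y ∈ B, y * g ∈ 𝐂[A W] :=
    fun s g hg n => s.ex_cent h (r.full h) fun b hb => s.pl_cent h
      (comm_mem_of_norm' n (mem_sup_right hb)) (h.comm_cent s.mX hg (s.symm.centA h hb))
  have c0 := t.symm.centA h ha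
  obtain ⟨y, hy, c1⟩ := k r.t₁ c0 n1
  have c2 : y * a ∈ 𝐂[A B] := mul_mem (cent_comm (A_le_cent B) hy) c0
  obtain ⟨y', hy', c3⟩ := k r.t₂ c2 (mul_mem ((r.t₂.mem h).norm hy) n2)
  obtain ⟨a', ha', c4⟩ := r.symm.ex_b h hy'
  have c5 : a'⁻¹ * (y * a) ∈ 𝐂[A Z] := mul_mem (r.t₁.cent_pl h (mem_sup_right (inv_mem ha'))) c1
  have c6 : a'⁻¹ * (y * a) ∈ 𝐂[Pl B Z Z'] := by
    rw [cent_sup, cent_sup]
    refine mem_inf.2 ⟨⟨mul_mem (r.t₁.symm.centA h (inv_mem ha')) c2, c5⟩, ?_⟩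
    simpa only [mul_inv_rev, mul_assoc, inv_mul_cancel_left] using mul_mem (inv_mem c4) c3
  have hp : y⁻¹ * a' ∈ Pl B Z Z' := mul_mem (r.B_le h (inv_mem hy)) (mem_sup_left (mem_sup_right ha'))
  have e1 : a = y⁻¹ * a' * (a'⁻¹ * (y * a)) := by group
  generalize y⁻¹ * a' = p at hp e1
  generalize a'⁻¹ * (y * a) = c at c5 c6 e1
  have e2 : p * p * (c * c) = 1 := by
    rw [← A_sq ha, e1, mul_assoc p p, ← mul_assoc p c c, mem_cent.1 c6 p hp, mul_assoc c,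
      ← mul_assoc, mem_cent.1 c6 p hp]
  have e3 := r.sq_P h hp
  rw [h.sq_eq_one r.t₁ c5 (by rw [eq_inv_of_mul_eq_one_right e2]; exact inv_mem (A_le _ e3)),
    mul_one] at e2
  have k2 : ∀ {W}, Two D B W → p ∈ A B ⊔ A W → c ∈ 𝐂[A W] → A X ≤ A B ⊔ A W := fun s h1 h2 =>
    s.le_pl h (r.full h) t (h.centA t.mZ s.mZ (A_le _ ha) ha1
      (h.norm_of_centA s.mZ (e1 ▸ mul_mem (s.cent_pl h h1) h2)))
  exact (r.invol h hp e2).imp (k2 r.t₁ · c5) (k2 r.t₂ · (cent_anti le_sup_right c6))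

theorem le_P (t : Two D B X) (e : A X ≤ 𝐍[Pl B Z Z']) : A X ≤ Pl B Z Z' :=
  (r.le_or_le h t e).elim (·.trans le_sup_left) (·.trans (sup_le_sup_right le_sup_left _))

theorem mem_norm {g : G} (hg : g ∈ 𝐍[B]) (e : cj(g, Pl B Z Z') ≤ 𝐍[Pl B Z Z']) :
    g ∈ 𝐍[Pl B Z Z'] := by
  rw [cj_sup, cj_sup, cj_A, cj_A Z, cj_A Z'] at e
  refine mem_norm_of_cj_le ?_
  rw [cj_sup, cj_sup, cj_of_norm (norm_A B hg), cj_A Z, cj_A Z']
  exact sup_le (sup_le (le_sup_left.trans le_sup_left)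
    (r.le_P h (r.t₁.cj' h hg) ((le_sup_right.trans le_sup_left).trans e)))
    (r.le_P h (r.t₂.cj' h hg) (le_sup_right.trans e))

theorem pg_le (hT : IsPGroup 2 T) (h1 : Pl B Z Z' ≤ T) (h2 : T ≤ 𝐍[B]) : T ≤ 𝐍[Pl B Z Z'] := by
  by_contra hn
  have := hT.isNilpotent
  refine (PG.lt_inf_normalizer (lt_of_le_of_ne (inf_le_left (b := 𝐍[Pl B Z Z']))
    fun e => hn (inf_eq_left.1 e))).not_ge fun g hg => ⟨hg.1, r.mem_norm h (h2 hg.1) ?_⟩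
  exact (cj_le_of_norm (le_inf h1 le_normalizer) hg.2).trans inf_le_right

theorem no_swap {n : G} (hn : n ∈ 𝐂[B]) (hn' : n ∈ 𝐍[Pl B Z Z']) :
    n ∈ 𝐍[A B ⊔ A Z] ∧ n ∈ 𝐍[A B ⊔ A Z'] := by
  refine (r.perm h hn').resolve_right fun ⟨s1, s2⟩ => ?_
  have hA : n ∈ 𝐂[A B] := cent_anti (A_le B) hn
  obtain ⟨b, hb, e⟩ := r.t₁.ex_cent h (r.full h) (g := n * n) fun a ha => r.t₁.pl_cent h
    (comm_mem_of_norm' (mem_norm_of_cj_le (cj_cj _ n n ▸ (cj_mono n s1).trans s2)) (mem_sup_right ha))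
    (h.comm_cent r.t₁.mX (mul_mem hA hA) (r.t₁.symm.centA h ha))
  obtain ⟨y, hy, hy', h1⟩ := r.t₁.exists_other h (r.full h) b
  obtain ⟨a, ha, h2⟩ := r.symm.ex_b h hy
  have h3 : y * a ∈ A B ⊔ A Z' :=
    r.symm.mem_pl h (mul_mem (r.symm.B_le h hy) (mem_sup_right ha)) h2
  have h4 := s1 (conj_mem_cj (mem_sup_right ha))
  have h5 := s2 (conj_mem_cj h3)
  have c1 := mem_cent.1 hn y hy
  rw [← conj_mul, cc c1.symm] at h5
  have h6 : (y * a)⁻¹ * (n * a * n⁻¹) ∈ A B := r.inf_pl h (by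
    rw [show (y * a)⁻¹ * (n * a * n⁻¹) = a⁻¹ * (y * y)⁻¹ * (y * (n * a * n⁻¹)) by group]
    exact mul_mem (mul_mem (mem_sup_right (inv_mem ha))
      (mem_sup_left (inv_mem (h.sqA r.t₁.mX hy)))) h5) (r.t₂.cent_pl h (mul_mem (inv_mem h3) h4))
  obtain ⟨u, hu⟩ : ∃ u, u = (y * a)⁻¹ * (n * a * n⁻¹) := ⟨_, rfl⟩
  rw [← hu] at h6
  have h7 : n * a * n⁻¹ = y * a * u := by rw [hu]; group
  have h8 : n * n * a * (n * n)⁻¹ = y * y * a := by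
    rw [show n * n * a * (n * n)⁻¹ = n * (n * a * n⁻¹) * n⁻¹ by group, h7, ← conj_mul, ← conj_mul,
      cc c1.symm, h7, cc (mem_cent.1 hA u h6).symm, mul_assoc, mul_assoc _ u, A_sq h6]
    group
  have h9 := inv_of_sq (r.symm.sq h hy ha h2) (A_sq ha)
  have ha1 := r.t₁.inj h (mul_mem hb hy) h1 (A_le _ ha) (by
    calc _ = b * (y * y * a) * (a⁻¹ * y⁻¹ * a) := by group
      _ = b * (n * n) * a * (n * n)⁻¹ * (a⁻¹ * (a * y * a⁻¹) * a) := by rw [← h8, h9]; group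
      _ = _ := by rw [← mem_cent.1 e a ha]; group)
  rw [ha1, mul_one] at h3
  exact r.t₂.not_pl h hy hy' h3

theorem le_Q : Pl B Z Z' ≤ pCoreOf 2 𝐍[B] := by
  have h1 : pCoreOf 2 𝐍[B] ≤ 𝐍[Pl B Z Z'] := le_sup_right.trans (r.pg_le h
    (pg_sup (r.pg_P h) (pg_core _) ((r.P_norm h).trans (le_norm_core _))) le_sup_left
    (sup_le (r.P_norm h) (pCoreOf_le _)))
  have k : ∀ {W}, Two D B W → pCoreOf 2 𝐍[B] ⊓ 𝐂[B] ≤ 𝐍[A B ⊔ A W] → A W ≤ pCoreOf 2 𝐍[B] :=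
    fun {W} s e => s.le_Q h fun θ hθ => by
      have n := fun {W} (s : Two D B W) => norm_of_cent (s.symm.centA h)
      have c : ⁅pCoreOf 2 𝐍[B] ⊓ 𝐂[B], A W⁆ ≤ A B := commutator_le.2 fun g hg a ha => s.pl_cent h
        (comm_mem_of_norm' (e hg) (mem_sup_right ha))
        (comm_mem_of_norm (norm_cent (s.symm.A_norm h) ha) hg.2)
      have c' := cj_mono θ c
      rw [cj_comm, cj_of_norm (norm_inf (le_norm_core _) (norm_cent le_rfl) hθ), cj_A,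
        cj_of_norm (norm_A B hθ)] at c'
      exact ⟨A B, le_rfl, comm_sup_le (n s) (n (s.cj' h hθ)) c c',
        comm_le_left (sup_le (n s) (n (s.cj' h hθ)))⟩
  exact sup_le (sup_le ((A_le B).trans (h.le_Q r.t₁.mX))
    (k r.t₁ fun g hg => (r.no_swap h hg.2 (h1 hg.1)).1)) (k r.t₂ fun g hg => (r.no_swap h hg.2 (h1 hg.1)).2)

theorem A_norm (t : Two D B X) : A X ≤ 𝐍[Pl B Z Z'] :=
  le_sup_left.trans (r.pg_le h (pg_sup (pg_A X) (pg_core _) ((t.symm.A_norm h).trans (le_norm_core _)))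
    ((r.le_Q h).trans le_sup_right) (sup_le (t.symm.A_norm h) (pCoreOf_le _)))

theorem two_le (t : Two D B X) : A X ≤ A B ⊔ A Z ∨ A X ≤ A B ⊔ A Z' := r.le_or_le h t (r.A_norm h t)

theorem norm_P : 𝐍[B] ≤ 𝐍[Pl B Z Z'] := fun g hg => r.mem_norm h hg (by
  rw [cj_sup, cj_sup, cj_of_norm (norm_A B hg), cj_A Z, cj_A Z']
  exact sup_le (sup_le (norm_of_le (le_sup_left.trans le_sup_left)) (r.A_norm h (r.t₁.cj' h hg)))
    (r.A_norm h (r.t₂.cj' h hg)))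

end Tri

end Cfsg.Agent.TIB
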