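import Mathlib
import Cfsg.Agent.TIB.F

/-! The TI-subgroup is homocyclic of order sixteen. -/

set_option autoImplicit false
set_option linter.unusedSectionVars false
open Cfsg

namespace Cfsg.Agent.TIB

open Cfsg.Agent.Loc.Mss Cfsg.Agent.GT Subgroup
open scoped commutatorElement

variable {G : Type*} [Group G] [Finite G] {D : Set (Subgroup G)} {X Y Z Z' T B : Subgroup G}

theorem Two.weyl (h : Cl D) (hf : Full D) (t : Two D B Z) {w : G} (hw : w ∈ B) (hw' : w ∉ A B) :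
    ∃ n, cj(n, B) = Z ∧ cj(n, Z) = B ∧
      ∀ a ∈ A Z, n * a * n⁻¹ = ⁅w, a⁆ ∧ n * ⁅w, a⁆ * n⁻¹ = a := by
  obtain ⟨a, ha, ha1⟩ := h.exA t.mZ
  have h1 := conj_mem_of_norm ((t.mem h).norm hw) (mem_sup_right ha)
  obtain ⟨z, hz, h2⟩ := (t.symm.part h hf (sup_comm (A B) _ ▸ h1)).resolve_left fun e =>
    hw' (t.A_eq h ▸ ⟨hw, h.norm_of_conj t.mZ (A_le _ ha) ha1 (A_le _ e)⟩)
  have h3 := h.ti (h.cj_mem t.mX z) (h.cj_mem t.mZ w) (A_le _ h2) (conj_mem_cj (A_le _ ha))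
    (by simpa using ha1)
  have h4 : cj(z, cj(w, Z)) = B := by
    rw [← h3, cj_cj, cj_of_norm (t.symm.A_norm h (h.sqA t.mZ hz))]
  refine ⟨w * z * w, ?_, ?_, fun a ha => ?_⟩
  · rw [← cj_cj, ← cj_cj, cj_of_mem hw, h3, cj_cj, cj_of_norm (t.A_norm h (h.sqA t.mX hw))]
  · rw [← cj_cj, ← cj_cj, h4, cj_of_mem hw]
  have hc := t.comm_mem h hw ha
  have h5 : z * (w * a * w⁻¹) * z⁻¹ ∈ B := h4 ▸ conj_mem_cj (conj_mem_cj (A_le _ ha))
  have h6 : w * a * w⁻¹ = ⁅w, a⁆ * a := by group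
  generalize ⁅w, a⁆ = c at hc h6
  have h7 := t.symm.comm_mem h hz hc
  have h8 : z * c * z⁻¹ = c * ⁅z, c⁆ := by rw [t.mc h hc h7]; group
  rw [h6, ← conj_mul, cc (h.mc t.mZ hz (A_le _ ha)), h8, mul_assoc] at h5
  have h9 := h.eq_one t.mX t.mZ t.ne ((mul_mem_cancel_left (A_le _ hc)).1 h5) (A_le _ (mul_mem h7 ha))
  have k : ∀ x, w * z * w * x * (w * z * w)⁻¹ = w * (z * (w * x * w⁻¹) * z⁻¹) * w⁻¹ := fun x => by group
  have k1 := cc (h.mc t.mX hw (A_le _ hc))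
  rw [k, k, h6, ← conj_mul (b := z), cc (h.mc t.mZ hz (A_le _ ha)), k1, h8, mul_assoc c, h9, mul_one, k1,
    eq_inv_of_mul_eq_one_left h9, A_inv ha, ← conj_mul, k1, h6, ← mul_assoc, A_sq hc, one_mul]
  exact ⟨rfl, rfl⟩

theorem Two.comm_mul (h : Cl D) (t : Two D B Z) {w a b : G} (hw : w ∈ B) (ha : a ∈ A Z)
    (hb : b ∈ A Z) : ⁅w, a * b⁆ = ⁅w, a⁆ * ⁅w, b⁆ := by
  rw [comm_mul_r, cc (t.mc h (t.comm_mem h hw hb) ha).symm]

theorem Cl.sq_mul (h : Cl D) (hB : B ∈ D) {x y : G} (hx : x ∈ B) (hy : y ∈ B) :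
    x * y * (x * y) = x * x * (y * y) := by
  rw [mul_assoc, ← mul_assoc y, h.mc hB hy hx]; group

theorem zp4 {w g : G} (e : w * w * (w * w) = 1) (hg : g ∈ zpowers w) :
    g = 1 ∨ g = w * w ∨ g * g = w * w := by
  obtain ⟨i, rfl⟩ := hg
  have h4 : w ^ (4 : ℤ) = 1 := by rw [← e, ← zpow_two, ← zpow_two, ← zpow_mul]; rfl
  change w ^ i = 1 ∨ w ^ i = _ ∨ w ^ i * w ^ i = _
  rw [zpow_eq_zpow_emod i h4]
  rcases (by omega : i % 4 = 0 ∨ i % 4 = 1 ∨ i % 4 = 2 ∨ i % 4 = 3) with k | k | k | k <;> rw [k]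
  · exact Or.inl (zpow_zero w)
  · exact Or.inr (Or.inr (by rw [zpow_one]))
  · exact Or.inr (Or.inl (zpow_two w))
  · exact Or.inr (Or.inr (by rw [← mul_one (w * w), ← h4]; group))

theorem equiv_prod {M L : Subgroup G} (hc : L ≤ 𝐂[M]) (hi : M ⊓ L = ⊥) :
    Nonempty (↥(M ⊔ L) ≃* M × L) := by
  let f : M × L →* G := M.subtype.noncommCoprod L.subtype fun m l => hc l.2 m m.2
  have hf : Function.Injective f := (injective_iff_map_eq_one f).2 fun ⟨m, l⟩ h => by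
    have h1 : (m : G) * l = 1 := h
    have h2 : (m : G) ∈ M ⊓ L := ⟨m.2, by rw [eq_inv_of_mul_eq_one_left h1]; exact L.inv_mem l.2⟩
    rw [hi, mem_bot] at h2
    rw [h2, one_mul] at h1
    exact Prod.ext (Subtype.ext h2) (Subtype.ext h1)
  have hr : f.range = M ⊔ L :=
    (MonoidHom.noncommCoprod_range _ _ _).trans (by rw [range_subtype, range_subtype])
  exact ⟨((MonoidHom.ofInjective hf).trans (MulEquiv.subgroupCongr hr)).symm⟩

theorem equiv_four {x : G} (e : x * x * (x * x) = 1) (h : x * x ≠ 1) :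
    Nonempty (zpowers x ≃* Multiplicative (ZMod 4)) :=
  ⟨(zmodCyclicMulEquiv (G := zpowers x) inferInstance).symm.trans (by
    rw [Nat.card_zpowers, show orderOf x = 4 from orderOf_eq_prime_pow (p := 2) (n := 1)
      (by rwa [pow_one, pow_two]) (by rw [← e, ← pow_two, ← pow_two, ← pow_mul]; rfl)])⟩

namespace Tri
variable (h : Cl D) (r : Tri D B Z Z')
include h r

theorem sq_comm {y a : G} (hy : y ∈ B) (ha : a ∈ A Z) (e : y * a ∈ 𝐂[A Z']) : ⁅y, a⁆ = y * y := by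
  rw [show ⁅y, a⁆ = y * (a * y * a⁻¹)⁻¹ by group, inv_of_sq (r.symm.sq h hy ha e) (A_sq ha), inv_inv]

theorem fixpt {y a w : G} (hy : y ∈ B) (ha : a ∈ A Z) (e : y * a ∈ 𝐂[A Z']) (hw : w ∈ B)
    (e' : ⁅w, a⁆ = y * y) : y * y = 1 ∨ y * y = w * w := by
  by_cases h1 : y⁻¹ * w ∈ A B
  · have h2 := A_sq h1
    rw [h.sq_mul r.t₁.mX (inv_mem hy) hw, ← mul_inv_rev, inv_mul_eq_one] at h2
    exact Or.inr h2
  · rw [← e', r.t₁.inj h (mul_mem (inv_mem hy) hw) h1 (A_le _ ha)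
      (comm_of_eq_l (e'.trans (r.sq_comm h hy ha e).symm)), commutatorElement_one_right]
    exact Or.inl rfl

theorem mul_rel {y a y' a' : G} (ha : a ∈ A Z) (e : y * a ∈ 𝐂[A Z']) (hy' : y' ∈ B)
    (e' : y' * a' ∈ 𝐂[A Z']) : y * y' * (a * a') ∈ 𝐂[A Z'] := by
  rw [show y * y' * (a * a') = y * a * ⁅y', a⁻¹⁆⁻¹ * (y' * a') by group]
  exact mul_mem (mul_mem e (inv_mem (r.t₂.centA h (r.t₁.comm_mem h hy' (inv_mem ha))))) e'

theorem twist {y a w : G} (hy : y ∈ B) (hy' : y ∉ A B) (ha : a ∈ A Z) (e : y * a ∈ 𝐂[A Z'])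
    (hw : w ∈ B) (hw' : w ∉ A B) :
    ∃ y' ∈ B, ∃ a' ∈ A Z, y' * a' ∈ 𝐂[A Z'] ∧ y' * y' = ⁅w, a⁆ ∧ ⁅w, a'⁆ = y * y := by
  obtain ⟨n, n1, n2, n3⟩ := r.t₁.weyl h (r.full h) hy hy'
  obtain ⟨m, m1, m2, m3⟩ := r.t₁.weyl h (r.full h) hw hw'
  have l1 : m * n ∈ 𝐍[B] := by rw [← cj_eq_iff, ← cj_cj, n1, m2]
  have l2 : m * n ∈ 𝐍[A Z] := norm_A Z (by rw [← cj_eq_iff, ← cj_cj, n2, m1])
  have l3 := ((r.perm h (r.norm_P h l1)).resolve_right fun k => r.not_le h (by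
    rw [cj_sup, cj_of_norm (norm_A B l1), cj_of_norm l2] at k
    exact k.1)).2
  have k : ∀ x, m * n * x * (m * n)⁻¹ = m * (n * x * n⁻¹) * m⁻¹ := fun x => by group
  obtain ⟨b, hb, e'⟩ := r.t₁.surj h hw hw' (h.sqA r.t₁.mX hy)
  refine ⟨_, conj_mem_of_norm l1 hy, _, conj_mem_of_norm l2 ha, ?_, ?_, ?_⟩
  · rw [conj_mul]
    exact cent_anti le_sup_right
      (conj_mem_of_norm (norm_cent le_rfl l3) (r.symm.cent_pl h hy ha e))
  · rw [conj_mul, ← r.sq_comm h hy ha e, k, (n3 a ha).2, (m3 a ha).1]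
  · rw [k, (n3 a ha).1, r.sq_comm h hy ha e, ← e', (m3 b hb).2]

theorem star {y a w : G} (hy : y ∈ B) (ha : a ∈ A Z) (e : y * a ∈ 𝐂[A Z']) (hw : w ∈ B)
    (hw' : w ∉ A B) (h1 : y * y ≠ 1) (h2 : y * y ≠ w * w) : ⁅w, a⁆ = y * y * (w * w) := by
  obtain ⟨y', hy', a', ha', e1, e2, e3⟩ := r.twist h hy (fun k => h1 (A_sq k)) ha e hw hw'
  have k := r.fixpt h (mul_mem hy hy') (mul_mem ha ha') (r.mul_rel h ha e hy' e1) hw (by
    rw [r.t₁.comm_mul h hw ha ha', ← e2, e3, h.sq_mul r.t₁.mX hy hy',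
      h.mc r.t₁.mX (mul_mem hy hy) (mul_mem hy' hy')])
  rw [h.sq_mul r.t₁.mX hy hy', e2] at k
  rcases k with k | k
  · rw [eq_inv_of_mul_eq_one_right k, A_inv (h.sqA r.t₁.mX hy)] at e2
    exact ((r.fixpt h hy ha e hw (by
      rw [eq_inv_of_mul_eq_one_right k, A_inv (h.sqA r.t₁.mX hy)])).elim h1 h2).elim
  · rw [← k, ← mul_assoc, h.e4 r.t₁.mX y hy, one_mul]

theorem sq_surj {c : G} (hc : c ∈ A B) : ∃ x ∈ B, x * x = c := by
  obtain ⟨w, hw, hw'⟩ := h.exN r.t₁.mX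
  obtain ⟨a, ha, rfl⟩ := r.t₁.surj h hw hw' hc
  obtain ⟨y, hy, e⟩ := r.symm.ex_y h ha
  by_cases hy' : y ∈ A B
  · refine ⟨1, one_mem _, ?_⟩
    rw [by_contra fun k => r.symm.not_cent h ha k ((mul_mem_cancel_left (r.t₂.centA h hy')).1 e),
      commutatorElement_one_right, mul_one]
  · obtain ⟨y', hy', -, -, -, e2, -⟩ := r.twist h hy hy' ha e hw hw'
    exact ⟨y', hy', e2⟩

theorem equiv : Nonempty (B ≃* Multiplicative (ZMod 4) × Multiplicative (ZMod 4)) := by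
  have hB := r.t₁.mX
  obtain ⟨w, hw, hw'⟩ := h.exN hB
  obtain ⟨y, hy, hy', h1⟩ := r.t₁.exists_other h (r.full h) w
  have w1 : w * w ≠ 1 := fun k => hw' ((h.memA hB).2 ⟨hw, k⟩)
  have y1 : y * y ≠ 1 := fun k => hy' ((h.memA hB).2 ⟨hy, k⟩)
  have h2 : y * y ≠ w * w := fun k => h1 ((h.memA hB).2 ⟨mul_mem hw hy, by
    rw [h.sq_mul hB hw hy, k, h.e4 hB w hw]⟩)
  have key : ∀ x ∈ B, ∃ u ∈ zpowers w ⊔ zpowers y, u ∈ B ∧ x * x = u * u := fun x hx => by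
    by_cases k1 : x * x = 1
    · exact ⟨1, one_mem _, one_mem _, by rw [k1, mul_one]⟩
    by_cases k2 : x * x = w * w
    · exact ⟨w, mem_sup_left (mem_zpowers w), hw, k2⟩
    obtain ⟨a, ha, e⟩ := r.symm.ex_b h hx
    obtain ⟨b, hb, e'⟩ := r.symm.ex_b h hy
    have k := r.fixpt h (mul_mem hx hy) (mul_mem ha hb) (r.mul_rel h ha e hy e') hw (by
      rw [r.t₁.comm_mul h hw ha hb, r.star h hx ha e hw hw' k1 k2, r.star h hy hb e' hw hw' y1 h2,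
        h.sq_mul hB hx hy, h.mc hB (mul_mem hy hy) (mul_mem hw hw), mul_assoc (x * x),
        ← mul_assoc (w * w), h.e4 hB w hw, one_mul])
    rw [h.sq_mul hB hx hy] at k
    rcases k with k | k
    · exact ⟨y, mem_sup_right (mem_zpowers y), hy, by
        rw [eq_inv_of_mul_eq_one_left k, A_inv (h.sqA hB hy)]⟩
    · exact ⟨w * y, mul_mem_sup (mem_zpowers w) (mem_zpowers y), mul_mem hw hy, by
        rw [h.sq_mul hB hw hy, ← k, mul_assoc (x * x), h.e4 hB y hy, mul_one]⟩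
  have e : zpowers w ⊔ zpowers y = B := by
    refine le_antisymm (sup_le (zpowers_le.2 hw) (zpowers_le.2 hy)) fun x hx => ?_
    obtain ⟨u, u1, u2, e⟩ := key x hx
    obtain ⟨v, hv, e'⟩ := r.sq_surj h ((h.memA hB).2 ⟨mul_mem (inv_mem u2) hx, by
      rw [h.sq_mul hB (inv_mem u2) hx, e]; group⟩)
    obtain ⟨u', u3, -, e''⟩ := key v hv
    rw [show x = u * (u⁻¹ * x) by group, ← e', e'']
    exact mul_mem u1 (mul_mem u3 u3)
  obtain ⟨f⟩ := equiv_prod (M := zpowers w) (L := zpowers y)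
    (zpowers_le.2 (cent_anti (zpowers_le.2 hw) (h.comm hB hy))) (eq_bot_iff.2 fun g hg => by
      rcases zp4 (h.e4 hB w hw) hg.1 with k | k | k
      · exact k
      all_goals rcases zp4 (h.e4 hB y hy) hg.2 with j | j | j
      · exact j
      · exact absurd (j.symm.trans k) h2
      · exact absurd (by rw [← j, k, h.e4 hB w hw]) y1
      · exact j
      · exact absurd (by rw [← k, j, h.e4 hB y hy]) w1
      · exact absurd (j.symm.trans k) h2)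
  obtain ⟨f1⟩ := equiv_four (h.e4 hB w hw) w1
  obtain ⟨f2⟩ := equiv_four (h.e4 hB y hy) y1
  exact ⟨(MulEquiv.subgroupCongr e.symm).trans (f.trans (f1.prodCongr f2))⟩

theorem card_B : Nat.card B = 16 := by
  obtain ⟨e⟩ := r.equiv h
  rw [Nat.card_congr e.toEquiv]
  simp

theorem card_A : Nat.card (A B) = 4 := by
  have := r.full h B r.t₁.mX
  rw [r.card_B h] at this
  exact (Nat.mul_self_inj (n := 4)).1 this.symm

end Tri

end Cfsg.Agent.TIB
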